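import Cfsg.Agent.Lib.NG.P1Blk
import Cfsg.Agent.Lib.NG.P2M

/-! Soluble amalgams over the centraliser of `Ω₁Z(T)`: the vertex groups. -/

set_option autoImplicit false
set_option linter.unusedSectionVars false

namespace Cfsg.Lib.LFE

open Cfsg Subgroup Cfsg.Lib.Transfer Cfsg.Lib.BG Cfsg.Lib.Loc Cfsg.Lib.Amalgam Cfsg.Lib.PLocal Cfsg.Lib.JComp Cfsg.Lib.NG
open Cfsg.Lib.Inv hiding conj_mem_of_mem_normalizer

variable {G : Type*} [Group G] [Finite G] {A B D F H K L N P Q S U V X Y : Subgroup G} {a b c d g k p u v w x y z : G}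

theorem comm_inf_odd (hV : IsElementaryAbelian 2 V) (hn : F ≤ 𝐍(V)) (ho : ¬ 2 ∣ 𝐂(V).relIndex F) (hK : K ≤ F) :
    ⁅V, K⁆ ⊓ 𝐂(K) = ⊥ := by
  obtain ⟨Γ, _, _, i, π, s⟩ := exists_sm hn (N := ⊥) (by rw [norm_bot]; exact le_top) (by rw [norm_bot]; exact le_top)
  have h1 := comm_le_left (hK.trans hn)
  rw [← le_bot_iff, ← s.kj.img_eq_bot (inf_le_left.trans h1), s.img_inf h1 hK, s.img_comm le_rfl hK]
  rw [← s.kc.card_img le_rfl] at ho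
  exact comm_inf_cent (s.kj.elemAb le_rfl fun v hv => mem_bot.2 (sq_of_elemAb hV hv))
    (odd_of_le (Nat.odd_iff.2 (by omega)) (img_mono hK)) (s.img_norm (hK.trans hn))

theorem sq_comm {Γ : Type*} [Group Γ] {a c d : Γ} (h1 : a * c * a⁻¹ = c⁻¹)
    (h2 : c * (d⁻¹ * (a * d * a⁻¹)) = d⁻¹ * (a * d * a⁻¹) * c) (h3 : a * (c * d * c⁻¹ * d⁻¹) * a⁻¹ = c * d * c⁻¹ * d⁻¹) :
    c * c * d = d * (c * c) := by
  rw [show a * (c * d * c⁻¹ * d⁻¹) * a⁻¹ = a * c * a⁻¹ * d * (d⁻¹ * (a * d * a⁻¹) * (a * c * a⁻¹)⁻¹) *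
    (d⁻¹ * (a * d * a⁻¹))⁻¹ * d⁻¹ by group, h1, inv_inv, ← h2] at h3
  calc c * c * d = c * (c * d * c⁻¹ * d⁻¹) * d * c := by group
    _ = d * (c * c) := by rw [← h3]; group

/-- `P` is a maximal subgroup of odd index of the soluble group `X` of characteristic 2 and contains `C_X(V(X))`. -/
structure Vx (P X : Subgroup G) : Prop where
  le : P ≤ X
  sol : Group.IsSolvable X
  chp : IsChP 2 X
  odd : ¬ 2 ∣ P.relIndex X
  max : ∀ Y x, P ≤ Y → x ∈ X → x ∈ Y → x ∉ P → X ≤ Y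
  cz : X ⊓ 𝐂(𝐕(X)) ≤ P
  rk : rk 3 X ≤ 2
  ne : 𝐕(X) ≠ ⊥

local notation "𝔅" => blk 𝐕(X) X F
local notation "𝔚(" a ")" => ⁅𝐕(X), blk 𝐕(X) X F a⁆

theorem exists_comm (f : FR 𝐕(X) X F) (ha : Tv 𝐕(X) X a) :
    ∃ k ∈ 𝔅 a, k * a * k⁻¹ * a⁻¹ ∈ 𝔅 a ∧ k * a * k⁻¹ * a⁻¹ ∉ 𝐂(𝐕(X)) := by
  by_contra! e
  refine f.ncomm a ha (le_cmod.1 (zpowers_le.2 (mem_cmod.2 ⟨norm_cent f.hn ha.mem, fun k hk => e k hk ?_⟩))).2
  rw [mul_assoc, mul_assoc, ← mul_assoc a]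
  exact mul_mem hk (conj_mem_of_norm (f.norm_blk f.hn ha) (inv_mem hk))

theorem fix_one (f : FR 𝐕(X) X F) (ha : Tv 𝐕(X) X a) (hk : k ∈ 𝔅 a) (hk' : k ∉ 𝐂(𝐕(X))) (hw : w ∈ 𝔚(a))
    (e : k * w * k⁻¹ = w) : w = 1 :=
  f.eq_one ha hw (le_of_idx3 (f.D_le_blk f.hn) (f.idx' f.hn ha) hk (fun c => hk' c.2)
    (inf_le_right.trans (cent_le_cent1 (f.P_le ha hw))) (cent1_of_conj_eq e))

theorem conj_W (f : FR 𝐕(X) X F) (hg : g ∈ X) : g ⋆ 𝔚(a) = 𝔚(g * a * g⁻¹) := by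
  rw [conj_commutator, conj_eq_of_norm (f.hn hg), f.conj_blk hg]

/-- `u` generates `[V, a]`. -/
def Cn (V : Subgroup G) (a u : G) : Prop := u ≠ 1 ∧ ∃ v ∈ V, v * a * v⁻¹ * a⁻¹ = u

theorem Cn.conj (h : Cn V a u) (g : G) : Cn (g ⋆ V) (g * a * g⁻¹) (g * u * g⁻¹) := by
  obtain ⟨h1, v, hv, rfl⟩ := h
  exact ⟨conj_ne_one h1, _, conj_mem_conj.2 hv, by group⟩

theorem exists_cn (ha : Tv V X a) : ∃ u, Cn V a u := by
  obtain ⟨v, hv, e⟩ := SetLike.not_le_iff_exists.1 (le_cent1_iff.not.2 ha.not_mem)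
  exact ⟨_, fun c => e (mem_cent1.2 (by rwa [mul_inv_eq_one, mul_inv_eq_iff_eq_mul] at c)), v, hv, rfl⟩

theorem Cn.or (h : Cn V a u) (f : FR V X F) (ha : Tv V X a) (hv : v ∈ V) :
    v * a * v⁻¹ * a⁻¹ = 1 ∨ v * a * v⁻¹ * a⁻¹ = u := by
  obtain ⟨h1, w, hw, rfl⟩ := h
  refine or_iff_not_imp_left.2 fun e => comm_eq_of_mul f.ab (f.hn ha.mem) hw hv
    (inv_mul_mem_of_relIndex_two ha.idx hw hv (fun c => h1 ?_) fun c => e ?_) <;> simp [mem_cent1.1 c]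

theorem Cn.mem (h : Cn V a u) (f : FR V X F) (ha : Tv V X a) : u ∈ ⁅V, blk V X F a⁆ := by
  obtain ⟨-, w, hw, rfl⟩ := h
  exact f.comm_mem ha hw

theorem Cn.fix (h : Cn V a u) (f : FR V X F) (ha : Tv V X a) : a * u * a⁻¹ = u := by
  obtain ⟨-, w, hw, rfl⟩ := h
  have e := inv_eq_of_mul_eq_one_right ha.sq
  have h1 := ea_comm f.red.elemAb hw (conj_mem_of_norm (f.hn ha.mem) hw)
  rw [e] at h1
  rw [inv_eq_of_mul_eq_one_right (sq_of_elemAb f.red.elemAb hw), e]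
  calc a * (w * a * w * a) * a = a * w * a * w * (a * a) := by group
    _ = _ := by rw [ha.sq, mul_one, ← h1]; group

/-- The group `⟨[F,a]^X⟩`. -/
def Kn (X F : Subgroup G) (a : G) : Subgroup G := ncl ⁅F, zpowers a⁆ X

theorem Kn_le (f : FR V X F) (hn : X ≤ 𝐍(N)) (ha : a ∈ N) : Kn X F a ≤ N :=
  ncl_le (comm_le_of_norm (f.le.trans hn) (zpowers_le.2 ha)) hn

theorem Kn_le_F (f : FR V X F) (ha : a ∈ X) : Kn X F a ≤ F :=
  ncl_le (comm_le_left (zpowers_le.2 (f.norm ha))) f.norm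

theorem W_le_Kn (f : FR V X F) (ha : a ∈ X) : ⁅V, blk V X F a⁆ ≤ ⁅V, Kn X F a⁆ := by
  have h1 := norm_comm f.hn (norm_ncl ⁅F, zpowers a⁆ X)
  refine (le_cmod.1 (sup_le (le_cmod.2 ⟨?_, commutator_mono le_rfl (le_ncl _ _)⟩) (le_cmod.2 ⟨inf_le_left.trans h1, ?_⟩))).2
  · exact (comm_le_left (zpowers_le.2 (f.norm ha))).trans (f.le.trans h1)
  · rw [comm_eq_bot_iff'.2 inf_le_right]; exact bot_le

namespace Vx

variable (h : Vx P X)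
include h

theorem conj (g : G) : Vx (g ⋆ P) (g ⋆ X) where
  le := conj_mono g h.le
  sol := by have := h.sol; exact Group.isSolvable_of_surjective (f := (X.equivMapOfInjective _ (MulAut.conj g).injective).toMonoidHom) (MulEquiv.surjective _)
  chp := h.chp.conj g
  odd := by rw [relIndex_conj]; exact h.odd
  max := fun Y x h1 h2 h3 h4 => conj_le_iff_le_inv_conj.2 (h.max _ (g⁻¹ * x * g) (conj_le_iff_le_inv_conj.1 h1)
    (mem_conj.1 h2) (mem_conj.2 (by simpa [mul_assoc] using h3)) fun e => h4 (mem_conj.2 e))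
  cz := by rw [← NG.conj_V, ← conj_centralizer, ← conj_inf]; exact conj_mono g h.cz
  rk := by have : Fact (Nat.Prime 3) := ⟨by norm_num⟩; rw [rk_conj]; exact h.rk
  ne := by rw [← NG.conj_V]; exact fun e => h.ne (conj_eq_bot_iff.1 e)

theorem conj' (hg : g ∈ X) : Vx (g ⋆ P) X := by simpa only [conj_eq_of_mem hg] using h.conj g

theorem Q_le : 𝐐(X) ≤ P := core_le_of_not_dvd h.odd

theorem red : PRed 2 𝐕(X) X := pRed_Z h.chp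

theorem V_cent : 𝐐(X) ≤ 𝐂(𝐕(X)) :=
  (le_centralizer_oz _).trans (cent_anti (Z_le_iff.2 fun _ hT => h.chp.oz_le_oz_core hT.le hT.core_le))

theorem V_le_Q : 𝐕(X) ≤ 𝐐(X) := h.red.le_core

theorem ea : IsElementaryAbelian 2 𝐕(X) := h.red.elemAb

theorem V_sq (hz : z ∈ 𝐕(X)) : z * z = 1 := sq_of_elemAb h.ea hz

theorem V_inv (hz : z ∈ 𝐕(X)) : z⁻¹ = z := inv_eq_of_mul_eq_one_right (h.V_sq hz)

theorem fr : ∃ F, FR 𝐕(X) X F := exists_fr h.sol h.red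

theorem nD : X ≤ 𝐍(X ⊓ 𝐂(𝐕(X))) := norm_inf (le_norm X) (norm_cent norm_Z)

theorem mem_Q (hx : x ∈ 𝐐(P)) (hc : x ∈ 𝐂(𝐕(X))) : x ∈ 𝐐(X) :=
  core_le_of_le_normalizer inf_le_left h.nD (core_inf_le h.cz ⟨hx, h.le (core_le 2 P hx), hc⟩)

theorem le_sup (h1 : K ≤ X) (h2 : ¬ K ≤ P) : X ≤ P ⊔ K := by
  obtain ⟨k, hk, e⟩ := SetLike.not_le_iff_exists.1 h2
  exact h.max _ k le_sup_left (h1 hk) (mem_sup_right hk) e

theorem mul (h1 : K ≤ X) (h2 : ¬ K ≤ P) (hn : P ≤ 𝐍(K)) (hx : x ∈ X) : ∃ k ∈ K, ∃ p ∈ P, k * p = x :=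
  (mem_sup_left_norm hn).1 (sup_comm P K ▸ h.le_sup h1 h2 hx)

theorem cmodD (ha : a ∈ 𝐐(P)) : a ∈ cmod (X ⊓ 𝐂(𝐕(X)) : Subgroup G) 𝐐(X) := by
  have h1 := h.le (core_le 2 P ha)
  refine mem_cmod.2 ⟨le_normalizer_core 2 X h1, fun d hd => h.mem_Q
    (mul_mem (conj_mem_of_norm (le_normalizer_core 2 P (h.cz hd)) ha) (inv_mem ha)) ?_⟩
  rw [mul_assoc, mul_assoc, ← mul_assoc a]
  exact mul_mem hd.2 (conj_mem_of_norm (norm_cent norm_Z h1) (inv_mem hd.2))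

variable (f : FR 𝐕(X) X F)
include f

theorem three (ha : Tv 𝐕(X) X a) (hb : Tv 𝐕(X) X b) (hc : Tv 𝐕(X) X c)
    (h1 : a ∈ cmod (X ⊓ 𝐂(𝐕(X)) : Subgroup G) 𝐐(X)) (h2 : b ∈ cmod (X ⊓ 𝐂(𝐕(X)) : Subgroup G) 𝐐(X))
    (h3 : c ∈ cmod (X ⊓ 𝐂(𝐕(X)) : Subgroup G) 𝐐(X)) : 𝔅 a = 𝔅 b ∨ 𝔅 a = 𝔅 c ∨ 𝔅 b = 𝔅 c := by
  by_contra! e
  have : Fact (Nat.Prime 3) := ⟨by norm_num⟩
  obtain ⟨_, kπ, -⟩ := exists_ker (le_normalizer_core 2 X)
  generalize QuotientGroup.mk' (𝐐(X).subgroupOf X) = π at kπ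
  have nM := norm_cmod h.nD (le_normalizer_core 2 X)
  have cm : ∀ {m d}, m ∈ X → m ∈ cmod (X ⊓ 𝐂(𝐕(X)) : Subgroup G) 𝐐(X) → d ∈ X → d ∈ 𝐂(𝐕(X)) →
      bar π m * bar π d = bar π d * bar π m := fun hm h1 hd h2 =>
    (mem_cent1.1 ((kπ.comm_iff hd hm).2 ((mem_cmod.1 h1).2 _ ⟨hd, h2⟩))).symm
  have key : ∀ {a}, Tv 𝐕(X) X a → a ∈ cmod (X ⊓ 𝐂(𝐕(X)) : Subgroup G) 𝐐(X) → ∃ c ∈ 𝔅 a, c * c ∉ 𝐂(𝐕(X)) ∧
      bar π (c * c) ^ 3 = 1 ∧ ∀ b, Tv 𝐕(X) X b → 𝔅 a ≠ 𝔅 b → ∀ d ∈ 𝔅 b,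
        bar π (c * c) * bar π (d * d) = bar π (d * d) * bar π (c * c) := fun {a} ha h1 => by
    obtain ⟨k, hk, h2, h3⟩ := exists_comm f ha
    have kX := f.blk_le' ha hk
    have h4 : k * a * k⁻¹ * a⁻¹ ∈ cmod _ _ := mul_mem (conj_mem_of_norm (nM kX) h1) (inv_mem h1)
    have h5 : a * (k * a * k⁻¹ * a⁻¹) * a⁻¹ = (k * a * k⁻¹ * a⁻¹)⁻¹ := by
      rw [inv_eq_of_mul_eq_one_right ha.sq, mul_assoc, mul_assoc _ a a, ha.sq]
      simp [inv_eq_of_mul_eq_one_right ha.sq, mul_assoc]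
    generalize k * a * k⁻¹ * a⁻¹ = c at h2 h3 h4 h5
    have cX := f.blk_le' ha h2
    have nB := (f.blk_le' ha).trans (norm_cent f.hn)
    have h6 : bar π a * bar π c * (bar π a)⁻¹ = (bar π c)⁻¹ := by rw [← bar_conj ha.mem cX, h5, bar_inv cX]
    refine ⟨c, h2, fun e => h3 (mem_of_sq_mem nB (f.idx a ha) h2 e), ?_, fun b hb e d hd => ?_⟩
    · have := cm ha.mem h1 (pow_mem cX 3) (cube_mem nB (f.idx a ha) h2)
      rw [bar_pow cX, ← mul_inv_eq_iff_eq_mul, ← conj_pow, h6, inv_pow, inv_eq_iff_mul_eq_one] at this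
      rw [bar_mul cX cX, (Commute.refl _).mul_pow, this]
    · have h7 := ((f.dich a b ha hb).resolve_left fun c => e c.1.symm).2
      have dX := f.blk_le' hb hd
      have h8 : c * d * c⁻¹ * d⁻¹ ∈ 𝐂(𝐕(X)) := h7 ((commutator_comm _ _).le (comm_mem_comm (mem_sup_left h2) (mem_sup_left hd)))
      have h9 : d⁻¹ * a * d⁻¹⁻¹ * a⁻¹ ∈ 𝐂(𝐕(X)) :=
        h7 (comm_mem_comm (inv_mem (mem_sup_left hd)) (mem_sup_right (mem_zpowers a)))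
      have h10 := cm ha.mem h1 (mul_mem (conj_mem_of_norm (le_norm _ cX) dX) (inv_mem dX)) h8
      have h11 := cm cX h4 (mul_mem (conj_mem_of_norm (le_norm _ (inv_mem dX)) ha.mem) (inv_mem ha.mem)) h9
      rw [bar_comm (inv_mem dX) ha.mem, bar_inv dX, inv_inv] at h11
      rw [bar_comm cX dX, ← mul_inv_eq_iff_eq_mul] at h10
      have := sq_comm h6 (by simpa only [mul_assoc] using h11) h10
      rw [bar_mul cX cX, bar_mul dX dX, ← mul_assoc, this, mul_assoc, this, ← mul_assoc]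
  obtain ⟨x, x1, x2, x3, x4⟩ := key ha h1
  obtain ⟨y, y1, y2, y3, y4⟩ := key hb h2
  obtain ⟨z, z1, z2, z3, -⟩ := key hc h3
  have xX := f.blk_le' ha (mul_mem x1 x1)
  have yX := f.blk_le' hb (mul_mem y1 y1)
  have zX := f.blk_le' hc (mul_mem z1 z1)
  have far : ∀ {a b}, Tv 𝐕(X) X a → Tv 𝐕(X) X b → 𝔅 a ≠ 𝔅 b → 𝔅 a ≤ 𝐂(𝔚(b)) := fun ha hb e =>
    le_sup_left.trans ((f.dich _ _ hb ha).resolve_left fun c => e c.1).1
  have out : ∀ {c z Y}, Tv 𝐕(X) X c → z ∈ 𝔅 c → z ∉ 𝐂(𝐕(X)) → Y ≤ 𝐂(𝔚(c)) → bar π z ∉ img π Y :=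
    fun hc z1 z2 hY e => z2 (f.faith _ hc ⟨z1, sup_le (inf_le_right.trans (h.V_cent.trans (cent_anti (f.P_le hc)))) hY
      (kπ.mem_sup (f.blk_le' hc z1) e)⟩)
  have e1 := Elem.zpowers (bar_mem_img (f := π) xX xX) (orderOf_eq_prime x3 fun e => x2 (h.V_cent ((kπ _ xX).1 e)))
  have e2 := e1.sup_zpowers (bar_mem_img yX yX) (by rw [cent_zpowers]; exact mem_cent1.2 (x4 b hb e.1 y y1).symm) y3
    (img_zpowers (f := π) xX ▸ out hb (mul_mem y1 y1) y2 (zpowers_le.2 (far ha hb e.1 (mul_mem x1 x1))))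
  have e3 := e2.sup_zpowers (bar_mem_img zX zX) (by
    rw [cent_sup, cent_zpowers, cent_zpowers]
    exact ⟨mem_cent1.2 (x4 c hc e.2.1 z z1).symm, mem_cent1.2 (y4 c hc e.2.2 z z1).symm⟩) z3 (by
    rw [← img_zpowers xX, ← img_zpowers yX, ← img_sup (zpowers_le.2 xX) (zpowers_le.2 yX)]
    exact out hc (mul_mem z1 z1) z2 (sup_le (zpowers_le.2 (far ha hc e.2.1 (mul_mem x1 x1)))
      (zpowers_le.2 (far hb hc e.2.2 (mul_mem y1 y1)))))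
  have e4 := e3.le_rk
  rw [img, subgroupOf_self, rk_map_eq_of_p', ← rk_map_of_injective X.subtype_injective, ← MonoidHom.range_eq_map,
    range_subtype] at e4
  · have := h.rk; omega
  · refine p'_of_pgroup (q := 2) (((core_pgroup 2 X).comap_subtype (K := X)).to_le fun g hg => ?_) (by norm_num)
    exact (kπ _ g.2).1 ((bar_mk g.2).trans hg.2)

theorem not_le (ha : Tv 𝐕(X) X a) (h1 : a ∈ 𝐐(P)) : ¬ ⁅F, zpowers a⁆ ≤ P := fun e =>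
  f.ncomm a ha (le_trans (le_inf (comm_le_of_norm ((sup_le e h.cz).trans (le_normalizer_core 2 P)) (zpowers_le.2 h1))
    ((comm_le_left (zpowers_le.2 (f.norm_blk f.hn ha))).trans (f.blk_le f.hn ha)))
    (le_of_odd (core_pgroup 2 P).to_inf_left inf_le_right (f.le.trans (norm_cent f.hn)) f.odd))

theorem blk_not_le (ha : Tv 𝐕(X) X a) (h1 : a ∈ 𝐐(P)) : ¬ 𝔅 a ≤ P := fun e => h.not_le f ha h1 (le_sup_left.trans e)

theorem Kn_not_le (ha : Tv 𝐕(X) X a) (h1 : a ∈ 𝐐(P)) : ¬ Kn X F a ≤ P := fun e => h.not_le f ha h1 ((le_ncl _ _).trans e)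

theorem F_not_le (ha : Tv 𝐕(X) X a) (h1 : a ∈ 𝐐(P)) : ¬ F ≤ P := fun e => h.blk_not_le f ha h1 ((f.blk_le f.hn ha).trans e)

theorem Kn_two (h1 : a ∈ 𝐐(P)) (hS : S ≤ Kn X F a) (h2 : IsPGroup 2 S) : S ≤ 𝐐(X) := by
  have h3 := Kn_le_F f (h.le (core_le 2 P h1))
  have nQ := le_normalizer_core 2 X
  have h4 := le_cmod.1 (Kn_le f (norm_cmod h.nD nQ) (h.cmodD h1))
  have h5 : S ≤ X ⊓ 𝐂(𝐕(X)) :=
    le_inf (hS.trans (h3.trans f.le)) (le_of_odd h2 (hS.trans h3) (f.le.trans (norm_cent f.hn)) f.odd)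
  refine le_trans (le_inf le_sup_right hS) ((le_core inf_le_right (norm_inf ?_ (le_norm _))
    (isPGroup_sup_core h2 (h5.trans (inf_le_left.trans (le_norm X)))).to_inf_left).trans
    (core_le_of_le_normalizer (h3.trans f.le) (norm_ncl _ _)))
  exact norm_of_comm_le (comm_sup_le (le_norm_of_le le_sup_left) (le_norm_of_le le_sup_right)
    ((comm_le_left h4.1).trans le_sup_left) (((commutator_mono h5 le_rfl).trans h4.2).trans le_sup_left))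

theorem fixw (ha : Tv 𝐕(X) X a) (h1 : a ∈ 𝐐(P)) (hu : Cn 𝐕(X) a u) (hp : p ∈ P) (h2 : p ∈ 𝐍(𝔚(a))) :
    p * u * p⁻¹ = u := by
  have h3 : a ∈ 𝐐(P) ⊓ 𝐍(𝔚(a)) := ⟨h1, f.normP' ha ha.mem (f.norm_blk f.hn ha)⟩
  have h4 := k4_card_fix (f.k4 ha) (core_pgroup 2 P).to_inf_left inf_le_right fun e => f.not_cent ha (e h3)
  obtain ⟨w, hw, w1⟩ := exists_ne_one fun e : 𝔚(a) ⊓ 𝐂(𝐐(P) ⊓ 𝐍(𝔚(a))) = ⊥ => by rw [e, card_bot] at h4; omega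
  rw [f.fix_eq ha (hu.mem f ha) hw.1 hu.1 w1 (f.not_cent ha) (hu.fix f ha)
    (by rw [mem_cent.1 hw.2 a h3, mul_inv_cancel_right])]
  rw [← mem_cent.1 (cent_of_card_two h4 (norm_inf (zpowers_le.2 h2) (norm_cent (norm_inf
    (zpowers_le.2 (le_normalizer_core 2 P hp)) (zpowers_le.2 (le_norm _ h2))))) (mem_zpowers p)) w hw,
    mul_inv_cancel_right]

theorem res_norm (ha : Tv 𝐕(X) X a) (h1 : a ∈ 𝐐(P)) : X ≤ 𝐍(𝐑(P)) := by
  obtain ⟨W, l, m⟩ : ∃ W, (∀ b ∈ 𝐐(P), Tv 𝐕(X) X b → 𝔚(b) ≤ W) ∧ ∀ Y, (∀ b ∈ 𝐐(P), Tv 𝐕(X) X b → 𝔚(b) ≤ Y) → W ≤ Y :=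
    ⟨⨆ (b) (_ : b ∈ 𝐐(P) ∧ Tv 𝐕(X) X b), 𝔚(b), fun b h1 h2 => le_iSup₂_of_le b ⟨h1, h2⟩ le_rfl,
      fun Y e => iSup₂_le fun b hb => e b hb.1 hb.2⟩
  have c : ∀ {b p}, b ∈ 𝐐(P) → p ∈ P → p * b * p⁻¹ ∈ 𝐐(P) := fun hb hp =>
    conj_mem_of_norm (le_normalizer_core 2 P hp) hb
  have nW : X ≤ 𝐍(W) := (h.le_sup f.le (h.F_not_le f ha h1)).trans (sup_le
    (norm_of_conj_le fun g hg => conj_le_iff_le_inv_conj.2 (m _ fun b hb hb' => conj_le_iff_le_inv_conj.1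
      ((conj_W f (h.le hg)).le.trans (l _ (c hb hg) (hb'.conj f.hn (h.le hg))))))
    (norm_of_conj_le fun g hg => conj_le_iff_le_inv_conj.2 (m _ fun b hb hb' => conj_le_iff_le_inv_conj.1
      ((conj_eq_of_norm (f.normP b hb' hg)).le.trans (l b hb hb')))))
  have nE := norm_inf (le_norm X) (norm_cent nW)
  have h2 : X ⊓ 𝐂(W) ≤ P := by_contra fun e => by
    obtain ⟨_, -, hk, hk'⟩ := exists_comm f ha
    obtain ⟨c, hc, p, hp, e⟩ := h.mul inf_le_left e (h.le.trans nE) (f.blk_le' ha hk)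
    obtain ⟨u, hu⟩ := exists_cn ha
    have h3 := cent_anti (l a h1 ha) hc.2
    rw [← e] at hk hk'
    refine hu.1 (fix_one f ha hk hk' (hu.mem f ha) ?_)
    rw [mul_inv_rev, mul_assoc c, mul_assoc c, ← mul_assoc _ p⁻¹, h.fixw f ha h1 hu hp
      ((mul_mem_cancel_left (norm_of_cent le_rfl h3)).1 (right_norm_comm _ _ hk)), mem_cent.1 (inv_mem h3) u (hu.mem f ha),
      mul_inv_cancel_left]
  have h3 : 𝐑(P) ≤ X ⊓ 𝐂(W) := res_le_iff.2 fun g hg o => ⟨h.le hg, cent_symm (m _ fun b hb hb' => cent_symm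
    (zpowers_le.2 ?_)) (mem_zpowers g)⟩
  · rw [← res_eq_of_le h3 h2]; exact nE.trans (normalizer_le_normalizer_res 2 _)
  have o := Nat.coprime_two_right.1 o
  have gX := h.le hg
  have h4 : g ∈ 𝐍(𝔅 b) := by
    rcases h.three f hb' (hb'.conj f.hn gX) (hb'.conj f.hn (mul_mem gX gX)) (h.cmodD hb) (h.cmodD (c hb hg))
      (h.cmodD (c hb (mul_mem hg hg))) with e | e | e
    · exact norm_of_conj_eq ((f.conj_blk gX).trans e.symm)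
    · exact mem_of_odd_of_sq o (norm_of_conj_eq ((f.conj_blk (mul_mem gX gX)).trans e.symm))
    · rw [← f.conj_blk gX, ← f.conj_blk (mul_mem gX gX), ← conj_conj] at e
      exact norm_of_conj_eq (conj_inj.1 e).symm
  obtain ⟨u, hu⟩ := exists_cn hb'
  have h5 := f.normP' hb' gX h4
  exact k4_mem_centralizer_of_odd (f.k4 hb') h5 o (hu.mem f hb') hu.1 (h.fixw f hb' hb hu hg h5)

end Vx

end Cfsg.Lib.LFE
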