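import Cfsg.Agent.Lib.LFE.A

/-! Soluble amalgams over the centraliser of `Ω₁Z(T)`: critical pairs; the edge group is a 2-group. -/

set_option autoImplicit false
set_option linter.unusedSectionVars false

namespace Cfsg.Lib.LFE

open Cfsg Subgroup Cfsg.Lib.Transfer Cfsg.Lib.BG Cfsg.Lib.Loc Cfsg.Lib.Amalgam Cfsg.Lib.PLocal Cfsg.Lib.JComp
open Cfsg.Lib.NG hiding CD NV
open Cfsg.Lib.Inv hiding conj_mem_of_mem_normalizer

variable {H : Type*} [Group H] [Finite H] {A B F K N U V X Y X₁ X₂ : Subgroup H} {a g r t u w x y z : H} {m n : ℕ}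
  {δ μ ν ε γ α α' β β' : CosetVertex X₁ X₂}

local notation "G[" δ "]" => MulAction.stabilizer H δ
local notation "Q[" δ "]" => vertexQ 2 δ
local notation "Z[" δ "]" => vertexZ 2 δ
local notation "Γ" => cosetGraph X₁ X₂

theorem Cn.eq (h : Cn V a u) (f : FR V X F) (ha : Tv V X a) (h' : Cn V a w) : w = u := by
  obtain ⟨h1, v, hv, rfl⟩ := h'
  exact (h.or f ha hv).resolve_left h1

theorem Cn.fix' (h : Cn V a u) (f : FR V X F) (ha : Tv V X a) (hy : y ∈ X) (hc : y ∈ 𝐂[a]) : y * u * y⁻¹ = u := by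
  have := h.conj y
  rw [conj_eq_of_norm (f.hn hy), conj_eq_of_cent1 hc] at this
  exact h.eq f ha this

theorem Cn.cz (h : Cn V t r) (f : FR V X F) (ht : Tv V X t) (ha : a ∈ ⁅V, blk V X F t⁆) (hy : y ∈ X) (hc : y ∈ 𝐂[t]) :
    Cz r y a := or_iff_not_imp_left.2 fun e => by
  have h1 := h.fix' f ht hy hc
  have h2 : a ≠ 1 := by rintro rfl; simp at e
  refine k4_eq_mul (f.k4 ht) ha (h.mem f ht) (conj_mem_of_norm (f.normP' ht hy (norm_of_conj_eq ?_)) ha) h2 h.1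
    (fun c => e (c ▸ h1)) (conj_ne_one h2) e fun c => e ?_
  · rw [f.conj_blk hy, conj_eq_of_cent1 hc]
  · rw [conj_injective (c.trans h1.symm), h1]

/-- An oriented edge. -/
structure Ed (X Y : Subgroup H) : Prop where
  vx : Vx (X ⊓ Y) X
  bot : ∀ N ≤ X ⊓ Y, X ≤ 𝐍(N) → Y ≤ 𝐍(N) → N = ⊥
  pu : ∀ K ≤ X, X ≤ 𝐍(K) → ¬ K ≤ X ⊓ Y → (∀ S ≤ K, IsPGroup 2 S → S ≤ 𝐐(X)) → ¬ K ⊓ 𝐐(X) ≤ 𝐐(Y)

theorem Ed.conj (h : Ed X Y) (g : H) : Ed (g ⋆ X) (g ⋆ Y) where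
  vx := conj_inf g X Y ▸ h.vx.conj g
  bot := fun N h1 h2 h3 => by
    rw [← conj_inf, le_conj_iff_inv_conj_le] at h1
    rw [conj_le_iff_le_inv_conj, conj_normalizer] at h2 h3
    exact conj_eq_bot_iff.1 (h.bot _ h1 h2 h3)
  pu := fun K h1 h2 h3 h4 h5 => by
    rw [← conj_inf, le_conj_iff_inv_conj_le] at h3
    rw [conj_le_iff_le_inv_conj, conj_normalizer] at h2
    rw [← conj_core, ← conj_core, le_conj_iff_inv_conj_le, conj_inf, inv_conj_conj] at h5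
    refine h.pu _ (le_conj_iff_inv_conj_le.1 h1) h2 h3 (fun S h6 h7 => ?_) h5
    have := h4 _ (conj_le_iff_le_inv_conj.2 h6) (isPGroup_conj h7 g)
    rwa [← conj_core, conj_le_conj_iff] at this

/-- The amalgam. -/
structure Am (X₁ X₂ : Subgroup H) : Prop where
  e₁ : Ed X₁ X₂
  e₂ : Ed X₂ X₁

/-- `Q_μ` contains a transvection on `Z_δ`. -/
def Gd (δ μ : CosetVertex X₁ X₂) : Prop := ∃ a ∈ Q[μ], Tv Z[δ] G[δ] a

theorem tv_smul (h : Tv Z[δ] G[δ] a) (g : H) : Tv Z[g • δ] G[g • δ] (g * a * g⁻¹) :=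
  ⟨conj_mem_G.2 h.mem, by rw [show g * a * g⁻¹ * (g * a * g⁻¹) = g * (a * a) * g⁻¹ by group, h.sq]; simp,
    by rw [← conj_vZ, ← conj_cent1, relIndex_conj, h.idx]⟩

theorem Gd.smul (h : Gd δ μ) (g : H) : Gd (g • δ) (g • μ) :=
  let ⟨_, h1, h2⟩ := h
  ⟨_, conj_mem_Q.2 h1, tv_smul h2 g⟩

namespace Am

variable (h : Am X₁ X₂)
include h

theorem ed (ha : (Γ).Adj δ μ) : Ed G[δ] G[μ] := by
  refine edge_ind (P := fun δ μ => Ed G[δ] G[μ]) (adj_inl_inr 1) ?_ ?_ (fun g a b hab => ?_) ha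
  · rw [G_base₁, G_base₂]; exact h.e₁
  · rw [G_base₁, G_base₂]; exact h.e₂
  · rw [← conj_G, ← conj_G]; exact hab.conj g

theorem vx (ha : (Γ).Adj δ μ) : Vx (G[δ] ⊓ G[μ]) G[δ] := (h.ed ha).vx

theorem Q_le (ha : (Γ).Adj δ μ) : Q[δ] ≤ G[μ] := (h.vx ha).Q_le.trans inf_le_right

theorem Q_le' (ha : (Γ).Adj δ μ) : Q[μ] ≤ G[δ] ⊓ G[μ] := le_inf (h.Q_le ha.symm) (Q_le_G 2 μ)

theorem Q_core (ha : (Γ).Adj δ μ) : Q[μ] ≤ 𝐐(G[δ] ⊓ G[μ]) := core_le_core inf_le_right (h.Q_le' ha)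

theorem Z_cent (δ : CosetVertex X₁ X₂) : Q[δ] ≤ 𝐂(Z[δ]) := (h.vx (exists_adj δ).choose_spec).V_cent

theorem ZQ (δ : CosetVertex X₁ X₂) : Z[δ] ≤ Q[δ] := (h.vx (exists_adj δ).choose_spec).V_le_Q

theorem Z_sq (hz : z ∈ Z[δ]) : z * z = 1 := (h.vx (exists_adj δ).choose_spec).V_sq hz

theorem fr (δ : CosetVertex X₁ X₂) : ∃ F, FR Z[δ] G[δ] F := (h.vx (exists_adj δ).choose_spec).fr

theorem mem_Q (ha : (Γ).Adj δ μ) (h1 : x ∈ Q[μ]) (h2 : x ∈ 𝐂(Z[δ])) : x ∈ Q[δ] := (h.vx ha).mem_Q (h.Q_core ha h1) h2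

theorem exists_crit : ∃ (n : ℕ) (α α' : CosetVertex X₁ X₂), Crit n α α' := by
  by_contra! e
  have key : ∀ n (δ μ : CosetVertex X₁ X₂), Wk n δ μ → Z[δ] ≤ Q[μ] := fun n δ μ w => by_contra fun c => e n δ μ ⟨w, c⟩
  have ha := adj_inl_inr (M₁ := X₁) (M₂ := X₂) 1
  generalize Sum.inl _ = δ, Sum.inr _ = μ at ha
  have hn : ∀ g : H, (∀ ε, (∃ n, Wk n δ ε) → ∃ n, Wk n δ (g • ε)) →
      g ⋆ (⨆ (ε) (_ : ∃ n, Wk n δ ε), Z[ε]) ≤ ⨆ (ε) (_ : ∃ n, Wk n δ ε), Z[ε] := fun g hg => by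
    refine conj_le_iff_le_inv_conj.2 (iSup₂_le fun ε hε => conj_le_iff_le_inv_conj.1 ?_)
    rw [conj_vZ]
    exact le_iSup₂_of_le (g • ε) (hg ε hε) le_rfl
  refine (h.vx ha).ne (eq_bot_mono ((h.ed ha).bot (⨆ (ε) (_ : ∃ n, Wk n δ ε), Z[ε])
    (iSup₂_le fun ε ⟨n, w⟩ => (key n _ _ w.symm).trans (h.vx ha).Q_le)
    (norm_of_conj_le fun g hg => hn g fun ε ⟨n, w⟩ => ⟨n, by simpa [mem_G.1 hg] using w.smul g⟩)
    (norm_of_conj_le fun g hg => hn g fun ε ⟨n, w⟩ => ⟨_, ((w.smul g).cons (adj_fix hg ha.symm).symm).cons ha.symm⟩))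
    (le_iSup₂_of_le δ ⟨0, rfl⟩ le_rfl))

end Am

/-- The critical distance is at least `n`. -/
structure CD (X₁ X₂ : Subgroup H) (n : ℕ) : Prop extends Am X₁ X₂ where
  lt : ∀ m < n, ∀ δ μ : CosetVertex X₁ X₂, Wk m δ μ → Z[δ] ≤ Q[μ]

theorem Am.exists_cd (h : Am X₁ X₂) : ∃ n, CD X₁ X₂ (n + 1) ∧ ∃ α α' : CosetVertex X₁ X₂, Crit (n + 1) α α' := by
  classical
  have h1 := Nat.find_spec h.exists_crit
  have h2 := fun m => Nat.find_min h.exists_crit (m := m)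
  generalize Nat.find h.exists_crit = n at h1 h2
  cases n with
  | zero => obtain ⟨α, α', h3, h4⟩ := h1; exact (h4 (h3 ▸ h.ZQ α)).elim
  | succ n => exact ⟨n, ⟨h, fun m hm δ μ w => by_contra fun c => h2 m hm ⟨δ, μ, w, c⟩⟩, h1⟩

/-- Transvections `t ∈ Z_α` on `Z_α'` and `a ∈ Z_α'` on `Z_α` with the same centre `r`. -/
structure Cq (α α' : CosetVertex X₁ X₂) (t a r : H) : Prop where
  mt : t ∈ Z[α]
  ma : a ∈ Z[α']
  tt : Tv Z[α'] G[α'] t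
  ta : Tv Z[α] G[α] a
  ct : Cn Z[α'] t r
  ca : Cn Z[α] a r
  cz : ∀ y ∈ G[α'], y ∈ 𝐂[t] → Cz r y a

namespace CD

variable (h : CD X₁ X₂ (n + 1))
include h

theorem lt' (w : Wk m δ μ) (hm : m ≤ n := by omega) : Z[δ] ≤ Q[μ] := h.lt m (by omega) δ μ w

theorem le_G (w : Wk (n + 1) α α') : Z[α] ≤ G[α'] := (h.lt' w.choose_spec.1).trans (h.Q_le w.choose_spec.2.symm)

theorem symm (c : Crit (n + 1) α α') : Crit (n + 1) α' α := ⟨c.wk.symm, fun e => by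
  obtain ⟨μ, w, ha⟩ := c.wk
  exact c.not fun z hz => h.mem_Q ha ((h.lt' w) hz) (cent_symm (e.trans (h.Z_cent α)) hz)⟩

theorem gen (w : Wk (n + 1) α α') (h1 : Z[α] ⊓ 𝐂(Z[α']) ≤ U) (h2 : ∀ t ∈ Z[α], Tv Z[α'] G[α'] t → t ∈ U) :
    Z[α] ≤ U := by_contra fun e => by
  obtain ⟨F, f⟩ := exists_mm (h.vx (exists_adj α).choose_spec).sol (h.vx (exists_adj α).choose_spec).red
  obtain ⟨F', f'⟩ := exists_mm (h.vx (exists_adj α').choose_spec).sol (h.vx (exists_adj α').choose_spec).red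
  obtain ⟨t, h3, h4, h5⟩ := f'.tv (h.le_G w) (fun a ha => h.Z_sq ha ▸ one_mem _)
    (f.q1 (h.le_G w.symm) fun a ha => h.Z_sq ha ▸ one_mem _) e h1
  exact h4 (h2 t h3 ⟨h5.mem, h.Z_sq h3, h5.idx⟩)

theorem exists_tv (c : Crit (n + 1) α α') : ∃ t ∈ Z[α], Tv Z[α'] G[α'] t := by
  by_contra! e
  obtain ⟨μ, w, ha⟩ := c.wk
  exact c.not (h.gen c.wk (fun x hx => h.mem_Q ha ((h.lt' w) hx.1) hx.2) fun t h1 h2 => (e t h1 h2).elim)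

theorem pair (w : Wk (n + 1) α α') (f : FR Z[α'] G[α'] F) (h1 : t ∈ Z[α]) (h2 : Tv Z[α'] G[α'] t) :
    ∃ a ∈ ⁅Z[α'], blk Z[α'] G[α'] F t⁆, ∃ r, Cq α α' t a r := by
  obtain ⟨a, ha, e⟩ := SetLike.not_le_iff_exists.1 (le_cent1_iff.not.2 (f.not_cent h2))
  obtain ⟨r, hr⟩ := exists_cn h2
  have h3 := f.P_le h2 ha
  have h4 := h.ZQ α |>.trans (h.Z_cent α)
  have h5 : ∀ y ∈ Z[α], Cz r y a := fun y hy => hr.cz f h2 ha (h.le_G w hy) (cent_le_cent1 h1 (h4 hy))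
  have h6 := (h5 t h1).eq fun c => e (mem_cent1_symm c)
  have h7 := f.P_le h2 (hr.mem f h2)
  have h8 : t * a * t⁻¹ * a⁻¹ = r := by rw [h6, ea_comm f.red.elemAb h3 h7, mul_inv_cancel_right]
  have h9 : r ∈ Z[α] := by
    rw [← h8, mul_assoc, mul_assoc, ← mul_assoc a]
    exact mul_mem h1 (conj_mem_of_norm (norm_Z (h.le_G w.symm h3)) (inv_mem h1))
  exact ⟨a, ha, r, h1, h3, h2, ⟨h.le_G w.symm h3, h.Z_sq h3, idx_cz (h.Z_sq h7) (h4.trans (cent_le_cent1 h9)) h5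
    fun c => e (mem_cent1_symm (c h1))⟩, hr, ⟨hr.1, t, h1, h8⟩, fun y hy hc => hr.cz f h2 ha hy hc⟩

theorem exists_cq (c : Crit (n + 1) α α') : ∃ t a r, Cq α α' t a r := by
  obtain ⟨F, f⟩ := h.fr α'
  obtain ⟨t, h1, h2⟩ := h.exists_tv c
  obtain ⟨a, -, r, q⟩ := h.pair c.wk f h1 h2
  exact ⟨t, a, r, q⟩

theorem gd (c : Crit (n + 1) α α') (ha : (Γ).Adj α' ν) : Gd α' ν := by
  obtain ⟨μ, w, hμ⟩ := c.wk
  obtain ⟨t, h1, h2⟩ := h.exists_tv c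
  obtain ⟨g, hg, rfl⟩ := neighbours_transitive hμ ha
  simpa only [mem_G.1 hg] using Gd.smul ⟨t, (h.lt' w) h1, h2⟩ g

end CD

theorem CD.step (h : CD X₁ X₂ (n + 2)) (q : Cq α α' t a r) (w : Wk (n + 1) α μ) (hμ : (Γ).Adj α' μ) (hγ : (Γ).Adj α γ)
    (ha : a ∉ G[γ]) : Crit (n + 2) γ μ := ⟨w.cons hγ, fun e => by
  obtain ⟨β, w', hβ⟩ := (w.snoc hμ).symm
  obtain ⟨F, f⟩ := h.fr α
  have v := h.vx hβ
  have h1 := h.Q_core hβ ((h.lt' w') q.ma)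
  have h2 := h.lt' (Wk.one hγ.symm)
  have nK := norm_ncl ⁅F, zpowers a⁆ G[α]
  have kF := Kn_le_F f q.ta.mem
  have nM : G[α] ≤ 𝐍(⁅Z[α], Kn G[α] F a⁆) := norm_comm f.hn nK
  have hM : ⁅Z[α], Kn G[α] F a⁆ ≤ Z[α] := comm_le_left (kF.trans (f.le.trans f.hn))
  have hr := W_le_Kn f q.ta.mem (q.ca.mem f q.ta)
  have h3 : a ∈ cmod (Z[α] ⊔ Z[γ] : Subgroup H) ⁅Z[α], Kn G[α] F a⁆ := cmod_swap (sup_le
    (fun y hy => mem_cmod1 (nM (Z_le hy)) (W_le_Kn f q.ta.mem (f.comm_mem q.ta hy))) fun y hy =>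
    mem_cmod1 (nM (Q_le_G 2 α (h2 hy))) (by
      rcases q.cz y (h.Q_le hμ.symm (e hy)) (cent_le_cent1 q.mt (h.Z_cent α (h2 hy))) with c | c <;> rw [c]
      · simp
      · exact conj_mem_of_norm (nM q.ta.mem) hr)) (nM q.ta.mem)
  have nU : G[α] ≤ 𝐍(Z[α] ⊔ Z[γ]) := (h.vx hγ).max _ a (norm_sup (inf_le_left.trans norm_Z) (inf_le_right.trans norm_Z))
    q.ta.mem (norm_of_comm_le ((le_cmod.1 (zpowers_le.2 h3)).2.trans (hM.trans le_sup_left)) (mem_zpowers a)) fun c => ha c.2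
  have h4 := (le_cmod.1 (Kn_le f (norm_cmod nU nM) h3)).2
  obtain ⟨g, hg, rfl⟩ := neighbours_transitive hγ hβ
  have h5 : Z[α] ⊔ Z[γ] = Z[α] ⊔ Z[g • γ] := by rw [← conj_eq_of_norm (nU hg), conj_sup, conj_vZ, conj_vZ, mem_G.1 hg]
  rw [h5] at nU h4
  have h6 : Kn G[α] F a ⊓ Q[α] ≤ 𝐍(Z[g • γ]) := inf_le_right.trans ((h.Q_le hβ).trans norm_Z)
  have h7 : ⁅Z[α] ⊔ Z[g • γ], Kn G[α] F a ⊓ Q[α]⁆ ≤ Z[g • γ] := comm_sup_le ((h.lt' (Wk.one hβ)).trans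
    ((Q_le_G 2 _).trans norm_Z)) (le_norm _) (by rw [comm_eq_bot_iff'.2 (inf_le_right.trans (h.Z_cent α))]; exact bot_le)
    (comm_le_left h6)
  have h8 := Kn_le f (norm_cent (norm_comm nU (norm_inf nK (norm_Q 2 α))))
    (cent_symm (h7.trans ((h.lt' w'.symm).trans (h.Z_cent α'))) q.ma)
  have h9 := eq_bot_mono (comm_inf_odd v.ea (f.le.trans f.hn) f.odd kF)
    (le_inf ((commutator_mono le_rfl inf_le_left).trans h4) (cent_symm h8))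
  exact (h.ed hβ).pu _ (kF.trans f.le) nK (v.Kn_not_le f q.ta h1) (fun S => v.Kn_two f h1) fun x hx =>
    h.mem_Q hβ.symm hx.2 (cent_anti le_sup_right (comm_eq_bot_iff'.1 h9 hx))⟩

theorem CD.exists_out (h : CD X₁ X₂ (n + 1)) (q : Cq α α' t a r) (w : Wk (n + 1) α α') : ∃ γ, (Γ).Adj α γ ∧ a ∉ G[γ] := by
  by_contra! e
  obtain ⟨β, w', hβ⟩ := w.symm
  obtain ⟨F, f⟩ := h.fr α
  refine (h.vx hβ).Kn_not_le f q.ta (h.Q_core hβ ((h.lt' w') q.ma)) (le_inf ((Kn_le_F f q.ta.mem).trans f.le)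
    ((Kn_le f (norm_ncl (zpowers a) _) (le_ncl _ _ (mem_zpowers a))).trans (ncl_le_iff.2 fun g hg => ?_)))
  rw [conj_le_iff_le_inv_conj, conj_G]
  exact zpowers_le.2 (e _ (adj_fix (inv_mem hg) hβ))

theorem Am.gd (h : Am X₁ X₂) (ha : (Γ).Adj δ μ) : Gd δ μ := by
  obtain ⟨n, h', α, α', c⟩ := h.exists_cd
  obtain ⟨γ, h1, h2⟩ : ∃ γ, (Γ).Adj α γ ∧ Gd γ α := by
    cases n with
    | zero => obtain ⟨_, rfl, e⟩ := c.wk; exact ⟨_, e.symm, h'.gd c e⟩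
    | succ n =>
      obtain ⟨t, a, r, q⟩ := h'.exists_cq c
      obtain ⟨γ, h1, h2⟩ := h'.exists_out q c.wk
      obtain ⟨μ, w, hμ⟩ := c.wk
      exact ⟨γ, h1, h'.gd (h'.symm (h'.step q w hμ h1 h2)) h1.symm⟩
  exact edge_ind h1 (h'.gd (h'.symm c) h1) h2 (fun g _ _ e => e.smul g) ha

theorem Am.two (h : Am X₁ X₂) : IsPGroup 2 ↥(X₁ ⊓ X₂) := by
  have e := adj_inl_inr (M₁ := X₁) (M₂ := X₂) 1
  have key : ∀ {δ μ : CosetVertex X₁ X₂}, (Γ).Adj δ μ → G[δ] ≤ 𝐍(𝐑(G[δ] ⊓ G[μ])) := fun {δ μ} e => by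
    obtain ⟨a, h1, h2⟩ := h.gd e
    obtain ⟨F, f⟩ := h.fr δ
    exact (h.vx e).res_norm f h2 (h.Q_core e h1)
  have := (h.ed e).bot _ (res_le 2 _) (key e) (by rw [inf_comm]; exact key e.symm)
  rwa [G_base₁, G_base₂, res_eq_bot_iff] at this

end Cfsg.Lib.LFE
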