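import Cfsg.Agent.Lib.LFE.B

/-! Soluble amalgams over a Sylow 2-subgroup: blocks and centres of transvections at a vertex. -/

set_option autoImplicit false
set_option linter.unusedSectionVars false

namespace Cfsg.Lib.LFE

open Cfsg Subgroup Cfsg.Lib.Transfer Cfsg.Lib.BG Cfsg.Lib.Loc Cfsg.Lib.Amalgam Cfsg.Lib.PLocal Cfsg.Lib.JComp
open Cfsg.Lib.NG hiding CD NV
open Cfsg.Lib.Inv hiding conj_mem_of_mem_normalizer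

variable {G : Type*} [Group G] [Finite G] {A B D F H K L N P Q R S U V X Y : Subgroup G} {a b c d g k p s u v w x y z : G}

local notation "𝔅" => blk 𝐕(X) X F
local notation "𝔚(" a ")" => ⁅𝐕(X), blk 𝐕(X) X F a⁆
local notation "𝔗" => Tv 𝐕(X) X

/-- At most two elements satisfy `q`. -/
def Le2 (q : G → Prop) : Prop := ∀ x y z, q x → q y → q z → x = y ∨ x = z ∨ y = z

/-- `u` is the centre of a transvection in `S`. -/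
def Wt (X S : Subgroup G) (u : G) : Prop := ∃ b ∈ S, Tv 𝐕(X) X b ∧ Cn 𝐕(X) b u

theorem tv_conj (h : 𝔗 a) (g : G) : Tv 𝐕(g ⋆ X) (g ⋆ X) (g * a * g⁻¹) :=
  ⟨conj_mem_conj.2 h.mem, by rw [show g * a * g⁻¹ * (g * a * g⁻¹) = g * (a * a) * g⁻¹ by group, h.sq]; simp,
    by rw [← NG.conj_V, ← conj_cent1, relIndex_conj, h.idx]⟩

theorem Wt.conj (h : Wt X S u) (g : G) : Wt (g ⋆ X) (g ⋆ S) (g * u * g⁻¹) :=
  let ⟨_, h1, h2, h3⟩ := h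
  ⟨_, conj_mem_conj.2 h1, tv_conj h2 g, NG.conj_V g X ▸ h3.conj g⟩

theorem Wt.mem (h : Wt X S u) : u ∈ 𝐕(X) := by
  obtain ⟨b, -, h2, -, v, hv, rfl⟩ := h
  rw [mul_assoc, mul_assoc, ← mul_assoc b]
  exact mul_mem hv (conj_mem_of_norm (norm_Z h2.mem) (inv_mem hv))

section

variable (f : FR 𝐕(X) X F)
include f

theorem F_norm_blk : F ≤ 𝐍(𝔅 a) := norm_sup (left_norm_comm _ _) (f.le.trans (f.norm_D f.hn))

theorem blk_conj (hb : 𝔗 b) (hk : k ∈ 𝔅 b) : 𝔅 (k * a * k⁻¹) = 𝔅 a := by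
  rw [← f.conj_blk (f.blk_le' hb hk), conj_eq_of_norm (F_norm_blk f (f.blk_le f.hn hb hk))]

theorem far (ha : 𝔗 a) (hb : 𝔗 b) (e : 𝔅 b ≠ 𝔅 a) : 𝔅 b ⊔ zpowers b ≤ 𝐂(𝔚(a)) :=
  ((f.dich a b ha hb).resolve_left fun c => e c.1).1

theorem far' (ha : 𝔗 a) (hb : 𝔗 b) (e : 𝔅 b ≠ 𝔅 a) (hx : x ∈ 𝔅 b ⊔ zpowers b) (hy : y ∈ 𝔅 a ⊔ zpowers a) :
    x * y * x⁻¹ * y⁻¹ ∈ 𝐂(𝐕(X)) := ((f.dich a b ha hb).resolve_left fun c => e c.1).2 (comm_mem_comm hx hy)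

theorem not_mem_F (ha : 𝔗 a) : a ∉ F := fun e => ha.not_mem (zpowers_le.1 (le_of_odd
  (pgroup_zpowers (Q := ⊥) IsPGroup.of_bot ha.sq) (zpowers_le.2 e) (f.le.trans (norm_cent f.hn)) f.odd))

theorem mul_mem_blk (ha : 𝔗 a) (hb : 𝔗 b) (e : 𝔅 b = 𝔅 a) : a * b ∈ 𝔅 a := by
  have h1 := ((f.dich a b ha hb).resolve_right fun c => f.not_cent hb (e ▸ c.1 (mem_sup_right (mem_zpowers b)))).2
  rw [sup_comm] at h1
  obtain ⟨x, hx, k, hk, rfl⟩ := (mem_sup_right_norm (zpowers_le.2 (f.norm_blk f.hn ha))).1 h1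
  rcases (mem_zp2 ha.sq).1 hx with rfl | rfl
  · exact (not_mem_F f hb (mul_mem (one_mem _) (f.blk_le f.hn ha hk))).elim
  · rwa [← mul_assoc, ha.sq, one_mul]

theorem comm_not_mem (ha : 𝔗 a) (hk : k ∈ 𝔅 a) (hk' : k ∉ 𝐂(𝐕(X))) : k * a * k⁻¹ * a⁻¹ ∉ 𝐂(𝐕(X)) := fun e =>
  f.ncomm a ha ((le_cmod.1 (zpowers_le.2 (mem_cmod_of (f.D_le_blk f.hn) ((f.blk_le' ha).trans (f.norm_D f.hn))
    (f.idx' f.hn ha) hk (fun c => hk' c.2) (f.norm_D f.hn ha.mem) ⟨mul_mem (conj_mem_of_norm (le_norm _ (f.blk_le' ha hk))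
    ha.mem) (X.inv_mem ha.mem), e⟩))).2.trans inf_le_right)

theorem norm_blk' (ha : 𝔗 a) (hb : 𝔗 b) : b ∈ 𝐍(𝔅 a) := by
  by_cases e : 𝔅 b = 𝔅 a
  · exact e ▸ f.norm_blk f.hn hb
  · exact norm_of_comm_le (((commutator_mono le_sup_left le_sup_right).trans (le_inf (comm_le_of_le
      (sup_le (f.blk_le' ha) (zpowers_le.2 ha.mem)) (sup_le (f.blk_le' hb) (zpowers_le.2 hb.mem)))
      ((f.dich b a hb ha).resolve_left fun c => e c.1.symm).2)).trans (f.D_le_blk f.hn)) (mem_zpowers b)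

end

/-- A vertex group over a Sylow 2-subgroup, with a transvection. -/
structure Vs (S X : Subgroup G) : Prop extends Vx S X where
  pg : IsPGroup 2 S
  ex : ∃ a ∈ S, Tv 𝐕(X) X a

namespace Vs

variable (h : Vs S X)
include h

theorem conj' (hg : g ∈ X) : Vs (g ⋆ S) X :=
  let ⟨_, h1, h2⟩ := h.ex
  ⟨h.toVx.conj' hg, isPGroup_conj h.pg g, _, conj_mem_conj.2 h1, h2.conj norm_Z hg⟩

theorem mem_core (hx : x ∈ S) : x ∈ 𝐐(S) := (core_eq_self_iff.2 h.pg).ge hx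

theorem mem_Q' (hx : x ∈ X) (hc : x ∈ 𝐂(𝐕(X))) : x ∈ 𝐐(X) := h.mem_Q (h.mem_core (h.cz ⟨hx, hc⟩)) hc

theorem wt_smul (hu : Wt X S u) (hs : s ∈ S) : Wt X S (s * u * s⁻¹) := by
  simpa only [conj_eq_of_mem hs, conj_eq_of_mem (h.le hs)] using hu.conj s

variable (f : FR 𝐕(X) X F)
include f

theorem three' (ha : 𝔗 a) (hb : 𝔗 b) (hc : 𝔗 c) : 𝔅 a = 𝔅 b ∨ 𝔅 a = 𝔅 c ∨ 𝔅 b = 𝔅 c :=
  have k : ∀ a ∈ X, a ∈ cmod (X ⊓ 𝐂(𝐕(X)) : Subgroup G) 𝐐(X) := fun a ha => mem_cmod.2 ⟨le_normalizer_core 2 X ha,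
    fun d hd => h.mem_Q' (mul_mem (conj_mem_of_norm (le_norm _ hd.1) ha) (inv_mem ha)) (by
      rw [mul_assoc, mul_assoc, ← mul_assoc a]
      exact mul_mem hd.2 (conj_mem_of_norm (norm_cent norm_Z ha) (inv_mem hd.2)))⟩
  h.three f ha hb hc (k a ha.mem) (k b hb.mem) (k c hc.mem)

theorem mem_cent (h1 : x ∈ S) (h2 : x ∈ F) : x ∈ 𝐂(𝐕(X)) :=
  le_of_odd h.pg.to_inf_left inf_le_right (f.le.trans (norm_cent f.hn)) f.odd ⟨h1, h2⟩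

theorem exists_conj (ha : 𝔗 a) (h1 : a ∈ S) (hb : 𝔗 b) : ∃ s ∈ S, 𝔅 (s * a * s⁻¹) = 𝔅 b := by
  by_contra! e
  obtain ⟨_, -, hk, hk'⟩ := exists_comm f hb
  obtain ⟨c, hc, s, hs, e'⟩ := h.mul (ncl_le (f.blk_le' ha) (h.le.trans (le_norm X)))
    (fun c => h.blk_not_le f ha (h.mem_core h1) ((le_ncl _ _).trans c)) (norm_ncl _ _) (f.blk_le' hb hk)
  have h2 : c ∈ 𝐂(𝔚(b)) := ncl_le_iff.2 (fun s hs => (f.conj_blk (h.le hs)).le.trans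
    (le_sup_left.trans (far f hb (ha.conj f.hn (h.le hs)) (e s hs)))) hc
  rw [← e'] at hk hk'
  obtain ⟨w, hw, w1⟩ := exists_ne_one (PGroup.inf_centralizer_ne_bot (k4_isPGroup (f.k4 hb))
    (h.pg.to_le (zpowers_le.2 hs)) (zpowers_le.2 ((mul_mem_cancel_left (norm_of_cent le_rfl h2)).1 (right_norm_comm _ _ hk)))
    fun e => by have := f.card b hb; rw [e, card_bot] at this; omega)
  refine w1 (fix_one f hb hk hk' hw.1 (conj_eq_of_cent1 (mul_mem (cent_le_cent1 hw.1 h2) ?_)))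
  exact mem_cent1_symm (cent_zpowers s ▸ hw.2)

theorem fixw' (ha : 𝔗 a) (h1 : a ∈ S) (hu : Cn 𝐕(X) a u) (hs : s ∈ S) (h2 : s ∈ 𝐍(𝔅 a)) : s * u * s⁻¹ = u :=
  h.fixw f ha (h.mem_core h1) hu hs (f.normP' ha (h.le hs) h2)

theorem cn_eq (ha : 𝔗 a) (h1 : a ∈ S) (hu : Cn 𝐕(X) a u) (hb : 𝔗 b) (h2 : b ∈ S) (hv : Cn 𝐕(X) b v) (e : 𝔅 a = 𝔅 b) :
    u = v := f.fix_eq hb (e ▸ hu.mem f ha) (hv.mem f hb) hu.1 hv.1 (f.not_cent hb)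
  (h.fixw' f ha h1 hu h2 (norm_blk' f ha hb)) (hv.fix f hb)

omit f in
theorem le2 : Le2 (Wt X S) := fun _ _ _ ⟨_, a1, a2, a3⟩ ⟨_, b1, b2, b3⟩ ⟨_, c1, c2, c3⟩ =>
  let ⟨_, f⟩ := h.fr
  (h.three' f a2 b2 c2).imp (h.cn_eq f a2 a1 a3 b2 b1 b3)
    (Or.imp (h.cn_eq f a2 a1 a3 c2 c1 c3) (h.cn_eq f b2 b1 b3 c2 c1 c3))

omit f in
theorem wt_conj (hu : Wt X S u) (hv : Wt X S v) : ∃ s ∈ S, s * u * s⁻¹ = v := by
  obtain ⟨F, f⟩ := h.fr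
  obtain ⟨a, a1, a2, a3⟩ := hu
  obtain ⟨b, b1, b2, b3⟩ := hv
  obtain ⟨s, hs, e⟩ := h.exists_conj f a2 a1 b2
  exact ⟨s, hs, h.cn_eq f (a2.conj f.hn (h.le hs)) (conj_mem_of_norm (le_norm _ hs) a1)
    (conj_eq_of_norm (f.hn (h.le hs)) ▸ a3.conj s) b2 b1 b3 e⟩

omit f in
theorem tv_fix (hu : Wt X S u) (hb : 𝔗 b) (h1 : b ∈ S) : b ∈ 𝐂[u] := by
  obtain ⟨F, f⟩ := h.fr
  obtain ⟨a, a1, a2, a3⟩ := hu
  exact cent1_of_conj_eq (h.fixw' f a2 a1 a3 h1 (norm_blk' f a2 hb))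

theorem mul_out (ha : 𝔗 a) (h1 : a ∉ S) (hb : 𝔗 b) (h2 : b ∈ S) : a * b ∉ 𝐂(𝐕(X)) := fun e =>
  h1 ((mul_mem_cancel_right h2).1 (h.Q_le (h.mem_Q' (mul_mem ha.mem hb.mem) e)))

theorem row {p : G → G → Prop} {q : G → Prop} (ha : 𝔗 a) (h1 : a ∉ S) (hR : R ≤ S) (hn : S ≤ 𝐍(R)) (hc : 𝔗 c) (h2 : c ∈ R)
    (hq : Le2 q) (hp : ∀ g ∈ X, a ∉ g ⋆ S → ∃ u, p g u ∧ q u ∧ a ∈ 𝐂[u] ∧ ∀ b ∈ g ⋆ R, 𝔗 b → b ∈ 𝐂[u]) :
    ∃ g ∈ X, ∃ u, p g u ∧ ∀ b, 𝔗 b → ∃ k ∈ 𝔅 b, k ∉ 𝐂(𝐕(X)) ∧ k ∈ 𝐂[u] := by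
  have ex : ∀ b, 𝔗 b → ∃ c ∈ R, 𝔗 c ∧ 𝔅 c = 𝔅 b := fun b hb =>
    let ⟨_, hs, e⟩ := h.exists_conj f hc (hR h2) hb
    ⟨_, conj_mem_of_norm (hn hs) h2, hc.conj f.hn (h.le hs), e⟩
  obtain ⟨d, d1, d2, d3⟩ := ex a ha
  have k1 : ∀ {b g u}, 𝔗 b → g ∈ 𝔅 b → a ∉ g ⋆ S → a ∈ 𝐂[u] → (∀ b ∈ g ⋆ R, 𝔗 b → b ∈ 𝐂[u]) →
      ∃ k ∈ 𝔅 a, k ∉ 𝐂(𝐕(X)) ∧ k ∈ 𝐂[u] := fun hb hg h3 h4 h5 =>
    have t := d2.conj f.hn (f.blk_le' hb hg)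
    ⟨_, mul_mem_blk f ha t ((blk_conj f hb hg).trans d3), (h.conj' (f.blk_le' hb hg)).mul_out f ha h3 t
      (conj_mem_conj.2 (hR d1)), mul_mem h4 (h5 _ (conj_mem_conj.2 d1) t)⟩
  by_cases e : ∀ b, 𝔗 b → 𝔅 b = 𝔅 a
  · obtain ⟨u, u1, -, u2, u3⟩ := hp 1 (one_mem _) (by rwa [conj_one])
    exact ⟨1, one_mem _, u, u1, fun b hb => e b hb ▸ k1 ha (one_mem _) (by rwa [conj_one]) u2 u3⟩
  push Not at e
  obtain ⟨b, hb, e⟩ := e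
  obtain ⟨c, c1, c2, c3⟩ := ex b hb
  rw [← c3] at e
  have out : ∀ g ∈ 𝔅 c, a ∉ g ⋆ S := fun g hg h3 => h1 (by
    have := h.Q_le (h.mem_Q' (mul_mem (conj_mem_of_norm (le_norm _ (inv_mem (f.blk_le' c2 hg))) ha.mem) (inv_mem ha.mem))
      (far' f ha c2 e (inv_mem (mem_sup_left hg)) (mem_sup_right (mem_zpowers a))))
    rw [inv_inv] at this
    exact inv_mem_iff.1 ((mul_mem_cancel_left (mem_conj.1 h3)).1 this))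
  have key : ∀ g ∈ 𝔅 c, ∀ k ∈ 𝔅 c, k⁻¹ * g ∉ 𝐂(𝐕(X)) → ∀ u, p g u → a ∈ 𝐂[u] → (∀ b ∈ g ⋆ R, 𝔗 b → b ∈ 𝐂[u]) →
      (∀ b ∈ k ⋆ R, 𝔗 b → b ∈ 𝐂[u]) → ∃ g ∈ X, ∃ u, p g u ∧ ∀ b, 𝔗 b → ∃ k ∈ 𝔅 b, k ∉ 𝐂(𝐕(X)) ∧ k ∈ 𝐂[u] :=
    fun g hg k hk h3 u h4 h5 h6 h7 => ⟨g, f.blk_le' c2 hg, u, h4, fun b hb => by
      rcases h.three' f ha c2 hb with e' | e' | e'
      · exact (e e'.symm).elim
      · exact e' ▸ k1 c2 hg (out g hg) h5 h6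
      have t1 := c2.conj f.hn (f.blk_le' c2 hg)
      have t2 := c2.conj f.hn (f.blk_le' c2 hk)
      refine ⟨_, (blk_conj f c2 hg).trans e' ▸ mul_mem_blk f t1 t2 ((blk_conj f c2 hk).trans (blk_conj f c2 hg).symm),
        fun c => comm_not_mem f c2 (mul_mem (inv_mem hk) hg) h3 ?_,
        mul_mem (h6 _ (conj_mem_conj.2 c1) t1) (h7 _ (conj_mem_conj.2 c1) t2)⟩
      convert conj_mem_of_norm (norm_cent f.hn (inv_mem (f.blk_le' c2 hk))) c using 1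
      rw [inv_eq_of_mul_eq_one_right c2.sq]; group⟩
  obtain ⟨_, -, hk, hk'⟩ := exists_comm f c2
  generalize _ * c * _ * c⁻¹ = k at hk hk'
  obtain ⟨u, u1, u2, u3, u4⟩ := hp 1 (one_mem _) (out 1 (one_mem _))
  obtain ⟨v, v1, v2, v3, v4⟩ := hp k (f.blk_le' c2 hk) (out k hk)
  obtain ⟨w, w1, w2, w3, w4⟩ := hp k⁻¹ (f.blk_le' c2 (inv_mem hk)) (out k⁻¹ (inv_mem hk))
  rcases hq u v w u2 v2 w2 with rfl | rfl | rfl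
  · exact key k hk 1 (one_mem _) (by simpa using hk') u v1 v3 v4 u4
  · exact key 1 (one_mem _) _ (inv_mem hk) (by simpa using hk') u u1 u3 u4 w4
  · exact key k hk _ (inv_mem hk) (fun c => hk' (mem_of_sq_mem ((f.blk_le' c2).trans (norm_cent f.hn)) (f.idx _ c2) hk
      (by simpa using c))) v v1 v3 v4 w4

theorem res_cent {q : G → Prop} (hq : Le2 q) (h1 : ∀ s ∈ S, q (s * u * s⁻¹))
    (h2 : ∀ b, 𝔗 b → ∃ k ∈ 𝔅 b, k ∉ 𝐂(𝐕(X)) ∧ k ∈ 𝐂[u]) : 𝐑(X) ≤ 𝐂[u] := by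
  obtain ⟨a, a1, a2⟩ := h.ex
  obtain ⟨k, k1, k2, -⟩ := h2 a a2
  have h3 : X ≤ normalizer {v | ∃ s ∈ S, s * u * s⁻¹ = v} := h.max _ k
    (fun x hx => mem_normalizer_fintype (by rintro _ ⟨s, hs, rfl⟩; exact ⟨x * s, mul_mem hx hs, by group⟩))
    (f.blk_le' a2 k1) (mem_normalizer_fintype (by
      rintro _ ⟨s, hs, rfl⟩
      have t := a2.conj f.hn (inv_mem (h.le hs))
      obtain ⟨c, c1, c2, c3⟩ := h2 _ t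
      obtain ⟨x, hx, y, hy, e⟩ := (mem_sup_left_norm (inf_le_left.trans (le_normalizer_core 2 X))).1
        (le_of_idx3 (f.D_le_blk f.hn) (f.idx' f.hn t) c1 (fun e => c2 e.2)
        (fun x hx => mem_sup_left (h.mem_Q' hx.1 hx.2)) (mem_sup_right (⟨f.blk_le' t c1, c3⟩ : c ∈ X ⊓ 𝐂[u]))
        ((f.conj_blk (inv_mem (h.le hs))).le (conj_mem_conj.2 k1)))
      refine ⟨s * x, mul_mem hs (h.Q_le hx), ?_⟩
      calc s * x * u * (s * x)⁻¹ = s * x * (y * u * y⁻¹) * (s * x)⁻¹ := by rw [conj_eq_of_cent1 hy.2]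
        _ = s * (x * y) * u * (s * (x * y))⁻¹ := by group
        _ = _ := by rw [e]; group)) fun e => k2 (h.mem_cent f e (f.blk_le f.hn a2 k1))
  have h4 : ∀ x ∈ X, q (x * u * x⁻¹) := fun x hx => by
    obtain ⟨s, hs, e⟩ := (h3 hx u).1 ⟨1, one_mem _, by simp⟩
    exact e ▸ h1 s hs
  refine res_le_iff.2 fun x hx o => ?_
  rcases hq _ _ _ (h4 1 (one_mem _)) (h4 x hx) (h4 _ (mul_mem hx hx)) with e | e | e
  · exact cent1_of_conj_eq (by simpa using e.symm)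
  · exact mem_of_odd_of_sq (Nat.coprime_two_right.1 o) (cent1_of_conj_eq (by simpa using e.symm))
  · exact cent1_of_conj_eq (conj_injective (x := x) (Eq.trans (by group) e.symm))

end Vs

end Cfsg.Lib.LFE
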