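import Cfsg.Agent.Lib.LFE.C

/-! Soluble amalgams over the centraliser of `Ω₁Z(T)`: the critical distance is 1. -/

set_option autoImplicit false
set_option linter.unusedSectionVars false

namespace Cfsg.Lib.LFE

open Cfsg Subgroup Cfsg.Lib.Transfer Cfsg.Lib.BG Cfsg.Lib.Loc Cfsg.Lib.Amalgam Cfsg.Lib.PLocal Cfsg.Lib.JComp
open Cfsg.Lib.NG hiding CD NV
open Cfsg.Lib.Inv hiding conj_mem_of_mem_normalizer

variable {H : Type*} [Group H] [Finite H] {A B F K N U V X Y X₁ X₂ : Subgroup H} {a g r t u v w x y z : H} {m n : ℕ}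
  {δ δ' μ ν ε γ γ' α α' β β' : CosetVertex X₁ X₂}

local notation "G[" δ "]" => MulAction.stabilizer H δ
local notation "Q[" δ "]" => vertexQ 2 δ
local notation "Z[" δ "]" => vertexZ 2 δ
local notation "Γ" => cosetGraph X₁ X₂
local notation "𝔴[" δ "," μ "]" => Wt G[δ] (G[δ] ⊓ G[μ])

theorem wt_smul (h : 𝔴[δ,μ] u) (g : H) : 𝔴[g • δ,g • μ] (g * u * g⁻¹) := by
  simpa only [conj_inf, conj_G] using h.conj g

namespace Am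

variable (h : Am X₁ X₂)
include h

theorem vs (ha : (Γ).Adj δ μ) : Vs (G[δ] ⊓ G[μ]) G[δ] := by
  obtain ⟨a, h1, h2⟩ := h.gd ha
  refine ⟨h.vx ha, ?_, a, h.Q_le' ha h1, h2⟩
  refine edge_ind (P := fun δ μ => IsPGroup 2 ↥(G[δ] ⊓ G[μ])) (adj_inl_inr 1) ?_ ?_ (fun g a b hab => ?_) ha
  · rw [G_base₁, G_base₂]; exact h.two
  · rw [G_base₁, G_base₂, inf_comm]; exact h.two
  · rw [← conj_G, ← conj_G, ← conj_inf]; exact isPGroup_conj hab g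

theorem res_sup (ha : (Γ).Adj δ μ) : 𝐑(G[δ]) ⊔ G[δ] ⊓ G[μ] = G[δ] := res_sup_sylowIn inf_le_left (h.vx ha).odd

theorem eq_one (ha : (Γ).Adj δ μ) (hx : x ∈ G[δ] ⊓ G[μ]) (h1 : 𝐑(G[δ]) ≤ 𝐂[x]) (h2 : 𝐑(G[μ]) ≤ 𝐂[x]) : x = 1 := by
  have n : G[δ] ⊓ G[μ] ≤ 𝐍(G[δ] ⊓ G[μ] ⊓ 𝐂(𝐑(G[δ])) ⊓ 𝐂(𝐑(G[μ]))) := norm_inf (norm_inf (le_norm _)
    (norm_cent (inf_le_left.trans (le_normalizer_res 2 _)))) (norm_cent (inf_le_right.trans (le_normalizer_res 2 _)))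
  exact mem_bot.1 (((h.ed ha).bot _ (inf_le_left.trans inf_le_left) ((h.res_sup ha).ge.trans (sup_le
    (norm_of_cent (cent_symm (inf_le_left.trans inf_le_right))) n)) ((h.res_sup ha.symm).ge.trans (sup_le
    (norm_of_cent (cent_symm inf_le_right)) ((inf_comm _ _).le.trans n)))).le ⟨⟨hx, le_cent1_iff.1 h1⟩, le_cent1_iff.1 h2⟩)

theorem row {p : CosetVertex X₁ X₂ → H → Prop} {q : H → Prop} (f : FR Z[α] G[α] F) (ha : Tv Z[α] G[α] a)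
    (h0 : (Γ).Adj α γ) (h1 : a ∉ G[γ]) (hq : Le2 q)
    (hp : ∀ γ, (Γ).Adj α γ → a ∉ G[γ] → ∃ u, p γ u ∧ q u ∧ a ∈ 𝐂[u] ∧ ∀ b ∈ Q[γ], Tv Z[α] G[α] b → b ∈ 𝐂[u]) :
    ∃ γ, (Γ).Adj α γ ∧ ∃ u, p γ u ∧ ∀ b, Tv Z[α] G[α] b → ∃ k ∈ blk Z[α] G[α] F b, k ∉ 𝐂(Z[α]) ∧ k ∈ 𝐂[u] := by
  obtain ⟨c, c1, c2⟩ := h.gd h0
  obtain ⟨g, hg, e⟩ := (h.vs h0).row f (p := fun g => p (g • γ)) ha (fun e => h1 e.2) (h.Q_le' h0)
    (inf_le_right.trans (norm_Q 2 γ)) c2 c1 hq fun g hg e => by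
      rw [Amalgam.conj_Q]
      exact hp _ (adj_fix hg h0) fun c => e (conj_edge hg ▸ ⟨ha.mem, c⟩)
  exact ⟨_, adj_fix hg h0, e⟩

end Am

theorem CD.wt (h : CD X₁ X₂ (n + 2)) (q : Cq α α' t a r) (w : Wk (n + 1) α' β) (hβ : (Γ).Adj α β) : 𝔴[α,β] r :=
  ⟨a, h.Q_le' hβ ((h.lt' w) q.ma), q.ta, q.ca⟩

theorem CD.wt' (h : CD X₁ X₂ (n + 2)) (q : Cq α α' t a r) (w : Wk (n + 1) α μ) (hμ : (Γ).Adj α' μ) : 𝔴[α',μ] r :=
  ⟨t, h.Q_le' hμ ((h.lt' w) q.mt), q.tt, q.ct⟩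

theorem CD.res_cent0 (h : CD X₁ X₂ (n + 2)) (c : Crit (n + 2) α α') (hγ : (Γ).Adj α γ') (hu : 𝔴[γ',α] u) :
    𝐑(G[α]) ≤ 𝐂[u] := by
  obtain ⟨t, a, r, q⟩ := h.exists_cq c
  obtain ⟨γ, h1, h2⟩ := h.exists_out q c.wk
  obtain ⟨μ, w, hμ⟩ := c.wk
  obtain ⟨ν, w', hν⟩ := id w
  obtain ⟨F, f⟩ := h.fr α
  obtain ⟨γ, h3, v, h4, h5⟩ := h.row (p := fun γ u => 𝔴[γ,α] u) f q.ta h1 h2 (h.vs hν).le2 fun γ h1 h2 => by
    obtain ⟨t', a', u, q'⟩ := h.exists_cq (h.step q w hμ h1 h2)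
    have h3 := h.wt' q' (w'.cons h1) hν
    have h4 := h.wt q' w.symm h1.symm
    exact ⟨u, h4, h3, mem_cent1_symm (cent_le_cent1 q.ma (h.Z_cent α' ((h.lt' (Wk.one hμ.symm)) h3.mem))),
      fun b hb _ => cent_le_cent1 h4.mem (h.Z_cent γ hb)⟩
  have h6 := (h.vs h3).res_cent f (h.vs h3.symm).le2 (fun s hs => (h.vs h3.symm).wt_smul h4 ⟨hs.2, hs.1⟩) h5
  obtain ⟨g, hg, rfl⟩ := neighbours_transitive hγ h3
  have h7 := wt_smul hu g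
  rw [mem_G.1 hg] at h7
  obtain ⟨s, hs, e⟩ := (h.vs h3.symm).wt_conj h7 h4
  rw [← e, ← conj_cent1, ← conj_cent1, conj_conj] at h6
  rw [← conj_le_conj_iff (g := s * g), conj_eq_of_norm (le_normalizer_res 2 _ (mul_mem hs.2 hg))]
  exact h6

theorem CD.res_cent (h : CD X₁ X₂ (n + 2)) (c : Crit (n + 2) α α') (hγ : (Γ).Adj δ γ) (hu : 𝔴[γ,δ] u) :
    𝐑(G[δ]) ≤ 𝐂[u] := by
  obtain ⟨t, a, r, q⟩ := h.exists_cq c
  obtain ⟨γ, h1, h2⟩ := h.exists_out q c.wk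
  obtain ⟨μ, w, hμ⟩ := c.wk
  obtain ⟨δ', c'⟩ := edge_ind (P := fun δ _ => ∃ δ', Crit (n + 2) δ δ') h1 ⟨_, c⟩ ⟨_, h.step q w hμ h1 h2⟩
    (fun g _ _ ⟨_, e⟩ => ⟨_, e.smul g⟩) hγ
  exact h.res_cent0 c' hγ hu

theorem CD.wt_move (h : CD X₁ X₂ (n + 2)) (c : Crit (n + 2) α α') (hγ : (Γ).Adj δ γ) (hγ' : (Γ).Adj δ γ')
    (hu : 𝔴[γ,δ] u) : 𝔴[γ',δ] u := by
  obtain ⟨g, hg, rfl⟩ := neighbours_transitive hγ hγ'
  obtain ⟨k, hk, s, hs, rfl⟩ := (mem_sup_left_norm (inf_le_left.trans (le_normalizer_res 2 _))).1 ((h.res_sup hγ).ge hg)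
  have := wt_smul hu k
  rwa [conj_eq_of_cent1 (h.res_cent c hγ hu hk), mem_G.1 (res_le 2 _ hk), ← mem_G.1 hs.2, ← mul_smul] at this

theorem CD.not_three (h : CD X₁ X₂ (n + 3)) (c : Crit (n + 3) α α') : False := by
  obtain ⟨t, a, r, q⟩ := h.exists_cq c
  obtain ⟨γ, h1, h2⟩ := h.exists_out q c.wk
  obtain ⟨μ, w, hμ⟩ := c.wk
  obtain ⟨ν, w', hν⟩ := id w
  obtain ⟨ξ, w'', hξ⟩ := id w'
  obtain ⟨F, f⟩ := h.fr α
  obtain ⟨γ, -, v, ⟨b, -, b1, b2⟩, h5⟩ := h.row (p := fun γ u => 𝔴[α,γ] u) f q.ta h1 h2 (h.vs hξ).le2 fun γ h1 h2 => by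
    have c' := h.step q w hμ h1 h2
    obtain ⟨t', a', u, q'⟩ := h.exists_cq c'
    obtain ⟨γ', h3, h4⟩ := h.exists_out q' c'.wk
    obtain ⟨t'', a'', v, q''⟩ := h.exists_cq (h.step q' (w'.cons h1) hν h3 h4)
    have h5 := h.wt' q'' ((w''.cons h1).cons h3) hξ
    have h6 := h.wt_move c h3 h1.symm (h.wt q'' (w'.cons h1).symm h3.symm)
    exact ⟨v, h6, h5, mem_cent1_symm (cent_le_cent1 q.ma (h.Z_cent α' ((h.lt' ((Wk.one hν.symm).snoc hμ)) h5.mem))),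
      fun b hb hb' => (h.vs h1).tv_fix h6 hb' (h.Q_le' h1 hb)⟩
  obtain ⟨k, k1, k2, k3⟩ := h5 b b1
  exact b2.1 (fix_one f b1 k1 k2 (b2.mem f b1) (conj_eq_of_cent1 k3))

theorem CD.comm_cent (h : CD X₁ X₂ 2) (c : Crit 2 α α') (h1 : (Γ).Adj ε δ) (h2 : (Γ).Adj ε δ') (hx : x ∈ Z[δ])
    (hy : y ∈ Z[δ']) : 𝐑(G[ε]) ≤ 𝐂[x * y * x⁻¹ * y⁻¹] := by
  obtain ⟨F, f⟩ := h.fr δ
  have l := (h.lt' (Wk.one h2.symm)).trans (h.Q_le' h1.symm)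
  have n : G[δ] ⊓ G[ε] ≤ 𝐍(𝐂(𝐑(G[ε]))) := norm_cent (inf_le_right.trans (le_normalizer_res 2 _))
  refine le_cent1_iff.2 ((mem_cmod.1 (h.gen (U := cmod Z[δ] 𝐂(𝐑(G[ε]))) ((Wk.one h2.symm).snoc h1.symm)
    (fun y hy => mem_cmod.2 ⟨n (l hy.1), fun x hx => ?_⟩) (fun y hy t => mem_cmod.2 ⟨n (l hy), fun x hx => ?_⟩) hy)).2 x hx)
  · rw [mem_cent.1 hy.2 x hx]; simp
  · obtain ⟨u, hu⟩ := exists_cn t
    rcases hu.or f t hx with e | e <;> rw [e]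
    exacts [one_mem _, le_cent1_iff.1 (h.res_cent c h1 ⟨y, l hy, t, hu⟩)]

theorem CD.not_two (h : CD X₁ X₂ 2) (c : Crit 2 α α') : False := by
  obtain ⟨t₀, x, r₀, q⟩ := h.exists_cq c
  obtain ⟨β, ⟨_, rfl, hβ⟩, hβ'⟩ := id c.wk
  obtain ⟨F, f⟩ := h.fr α
  obtain ⟨_, -, hk, hk'⟩ := exists_comm f q.ta
  generalize _ * x * _ * x⁻¹ = k at hk hk'
  have kG := f.blk_le' q.ta hk
  have xβ : x ∈ G[β] := Q_le_G 2 β ((h.lt' (Wk.one hβ')) q.ma)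
  have hγ := adj_fix kG hβ.symm
  have h1 : x ∉ G[k • β] := fun e => comm_not_mem f q.ta (inv_mem hk) (fun c => hk' (inv_mem_iff.1 c))
    ((h.vs hβ.symm).mem_cent f (mul_mem ⟨conj_mem_of_norm (le_norm _ (inv_mem kG)) q.ta.mem,
      by simpa using (conj_mem_G (g := k⁻¹)).2 e⟩ (inv_mem ⟨q.ta.mem, xβ⟩)) (by
      rw [mul_assoc, mul_assoc, ← mul_assoc x]
      exact f.blk_le f.hn q.ta (mul_mem (inv_mem hk) (conj_mem_of_norm (f.norm_blk f.hn q.ta) (inv_mem (inv_mem hk))))))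
  have h2 : k • k • β = x • k • β := by
    have n := (f.blk_le' q.ta).trans (f.norm_D f.hn)
    have e1 := inverts (f.D_le_blk f.hn) n (f.idx' f.hn q.ta) hk (f.norm_blk f.hn q.ta) (f.norm_D f.hn q.ta.mem)
      fun e => comm_not_mem f q.ta hk hk' ((mem_cmod.1 e).2 k hk).2
    have e2 := mul_mem (inv_mem (cube_mem n (f.idx' f.hn q.ta) hk)) e1
    have e3 := mul_mem (h.Q_le hβ.symm ((h.vs hβ.symm).mem_Q' e2.1 e2.2)) xβ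
    rw [← mul_smul, ← mul_smul, ← mem_G.1 e3, ← mul_smul, mem_G.1 e3]
    congr 1; simp only [pow_three]; group
  have c' := h.symm ((h.symm (h.step q (Wk.one hβ.symm) hβ' hγ h1)).smul k)
  rw [h2] at c'
  generalize k • β = γ at hγ c'
  have xx := h.Z_sq q.ma
  have key : ∀ y ∈ Z[γ], y * (x * y * x⁻¹) = x * y * x⁻¹ * y := fun y hy => by
    have l := (h.lt' (Wk.one hγ.symm)).trans (h.Q_le' hβ |>.trans (inf_comm _ _).le)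
    have e1 := h.comm_cent c hγ (adj_fix q.ta.mem hγ) hy ((conj_vZ x γ).le (conj_mem_conj.2 hy))
    have e2 := h.comm_cent c (adj_fix (l hy).2 hβ'.symm) hβ'.symm ((conj_vZ y α').le (conj_mem_conj.2 q.ma)) q.ma
    have e3 : x ∈ G[α] ⊓ G[β] := ⟨q.ta.mem, xβ⟩
    rw [show y * x * y⁻¹ * x * (y * x * y⁻¹)⁻¹ * x⁻¹ = y * (x * y * x⁻¹) * y⁻¹ * (x * y * x⁻¹)⁻¹ by
      simp only [mul_inv_rev, inv_inv, inv_eq_of_mul_eq_one_right xx, inv_eq_of_mul_eq_one_right (h.Z_sq hy), mul_assoc]] at e2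
    have e4 := mul_mem (mul_mem e3 (l hy)) (inv_mem e3)
    have := h.eq_one hβ.symm (mul_mem (mul_mem (mul_mem (l hy) e4) (inv_mem (l hy))) (inv_mem e4)) e1 e2
    rwa [mul_inv_eq_one, mul_inv_eq_iff_eq_mul] at this
  obtain ⟨F', f'⟩ := h.fr γ
  obtain ⟨a, a1, a2⟩ := h.exists_tv c'
  obtain ⟨t, ht, r, q'⟩ := h.pair c'.wk f' a1 a2
  obtain ⟨y, hy, rfl⟩ : ∃ y ∈ Z[γ], a = x * y * x⁻¹ := ⟨x⁻¹ * a * x, mem_conj.1 ((conj_vZ x γ).ge a1), by group⟩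
  have tb := tv_smul q'.ta x
  rw [← mul_smul, xx, one_smul] at tb
  have hb := (conj_vZ x γ).le (conj_mem_conj.2 q'.ma)
  have e1 := key t q'.ma
  have e2 := key y hy
  have e3 := key _ (mul_mem q'.ma hy)
  have hr := q'.ct.mem f' a2
  have e4 := (q'.cz _ a2.mem (mem_cent1.2 rfl)).resolve_left fun c => q'.ta.not_mem (by
    by_cases e : t = 1
    · exact e ▸ one_mem _
    · rw [f'.fix_eq a2 ht hr e q'.ct.1 (f'.not_cent a2) c (q'.ct.fix f' a2)]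
      exact h.Z_cent _ (h.ZQ _ (Wt.mem ⟨t, q'.ta.mem, q'.ta, q'.ca⟩)))
  have e5 := mem_cent.1 (h.Z_cent _ (h.ZQ _ hb)) r (Wt.mem ⟨t, q'.ta.mem, q'.ta, q'.ca⟩)
  have e6 := q'.ct.fix f' a2
  rw [show x * (t * y) * x⁻¹ = x * t * x⁻¹ * (x * y * x⁻¹) by group] at e3
  generalize x * t * x⁻¹ = b at *
  generalize x * y * x⁻¹ = a at *
  have e7 : y * b * y⁻¹ * b⁻¹ = r := by
    have : t * y = t * r * (b * y * b⁻¹) := calc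
      t * y = b * (a * t * a⁻¹ * (a * y * a⁻¹)) * b⁻¹ := (eq_mul_inv_of_mul_eq e3).trans (by group)
      _ = b * t * b⁻¹ * (b * r * b⁻¹) * (b * y * b⁻¹) := by rw [e4, ← e2]; group
      _ = _ := by rw [← e1, ← e5, mul_inv_cancel_right, mul_inv_cancel_right]
    rw [mul_assoc, mul_left_cancel_iff] at this
    nth_rw 1 [this]; group
  have e8 := f'.same a2 tb hr (e7 ▸ f'.comm_mem tb hy) q'.ct.1
  refine f'.not_cent tb (e8 ▸ k4_mem_cent (f'.k4 a2) ht hr (fun e => q'.ct.1 ?_) q'.ct.1 (fun e => q'.ct.1 ?_)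
    (by rw [← e1, mul_inv_cancel_right]) (by rw [← e5, mul_inv_cancel_right]))
  · simpa [e] using e4.symm
  · rw [e, e6] at e4; simpa using e4

theorem Am.cd_one (h : Am X₁ X₂) : CD X₁ X₂ 1 := ⟨h, fun m hm δ μ w => by
  obtain rfl : m = 0 := by omega
  exact w ▸ h.ZQ δ⟩

theorem Am.crit (h : Am X₁ X₂) (ha : (Γ).Adj δ μ) : Crit 1 δ μ := by
  obtain ⟨n, h', α, α', c⟩ := h.exists_cd
  rcases n with _ | _ | n
  · obtain ⟨_, rfl, e⟩ := id c.wk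
    exact edge_ind e (h'.symm c) c (fun g _ _ e => e.smul g) ha
  exacts [(h'.not_two c).elim, (h'.not_three c).elim]

end Cfsg.Lib.LFE
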