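import Cfsg.Agent.Lib.LFE.D

/-! Soluble amalgams over a Sylow 2-subgroup with critical distance 1. -/

set_option autoImplicit false
set_option linter.unusedSectionVars false

namespace Cfsg.Lib.LFE

open Cfsg Subgroup Cfsg.Lib.Transfer Cfsg.Lib.BG Cfsg.Lib.Loc Cfsg.Lib.Amalgam Cfsg.Lib.PLocal Cfsg.Lib.JComp
open Cfsg.Lib.NG hiding CD NV
open Cfsg.Lib.Inv hiding conj_mem_of_mem_normalizer

variable {G : Type*} [Group G] [Finite G] {A B D F F' H K L N P Q R S U V X Y : Subgroup G}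
  {a b c d g k p q r s t u v w x y z : G}

local notation "𝔅" => blk 𝐕(X) X F
local notation "𝔚(" a ")" => ⁅𝐕(X), blk 𝐕(X) X F a⁆
local notation "𝔗" => Tv 𝐕(X) X

/-- The blocks of `a` and `c` are all the blocks. -/
structure Cov (X F : Subgroup G) (a c : G) : Prop where
  ta : Tv 𝐕(X) X a
  tc : Tv 𝐕(X) X c
  or : ∀ b, Tv 𝐕(X) X b → blk 𝐕(X) X F b = blk 𝐕(X) X F a ∨ blk 𝐕(X) X F b = blk 𝐕(X) X F c

theorem Cov.symm (h : Cov X F a c) : Cov X F c a := ⟨h.tc, h.ta, fun b hb => (h.or b hb).symm⟩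

theorem Cov.norm (h : Cov X F a c) (f : FR 𝐕(X) X F) : X ≤ 𝐍(𝔚(a) ⊔ 𝔚(c)) := norm_of_conj_le fun g hg => by
  rw [conj_sup, conj_W f hg, conj_W f hg]
  refine sup_le ?_ ?_
  · rcases h.or _ (h.ta.conj f.hn hg) with e | e <;> rw [e]; exacts [le_sup_left, le_sup_right]
  · rcases h.or _ (h.tc.conj f.hn hg) with e | e <;> rw [e]; exacts [le_sup_left, le_sup_right]

theorem Cov.le (h : Cov X F a c) (f : FR 𝐕(X) X F) : 𝔚(a) ⊔ 𝔚(c) ≤ 𝐕(X) := sup_le (f.P_le h.ta) (f.P_le h.tc)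

theorem Cov.dec (h : Cov X F a c) (f : FR 𝐕(X) X F) (hw : w ∈ 𝔚(a) ⊔ 𝔚(c)) : ∃ u ∈ 𝔚(a), ∃ v ∈ 𝔚(c), u * v = w :=
  (mem_sup_left_norm ((f.P_le h.tc).trans (abelian_norm f.red.elemAb.1 (f.P_le h.ta)))).1 hw

theorem Cov.swap (h : Cov X F a c) (f : FR 𝐕(X) X F) (hs : s ∈ X) (h1 : s ∉ 𝐍(𝔅 a)) : 𝔅 (s * a * s⁻¹) = 𝔅 c :=
  (h.or _ (h.ta.conj f.hn hs)).resolve_left fun e => h1 (norm_of_conj_eq ((f.conj_blk hs).trans e))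

theorem Cov.norm' (h : Cov X F a c) (f : FR 𝐕(X) X F) (hs : s ∈ X) (h1 : s ∈ 𝐍(𝔅 a)) : s ∈ 𝐍(𝔅 c) := by_contra fun e => by
  have := h.symm.swap f hs e
  rw [← f.conj_blk hs, ← conj_eq_of_norm h1, conj_inj] at this
  exact e (this ▸ h1)

theorem Cov.mul_norm (h : Cov X F a c) (f : FR 𝐕(X) X F) (hx : x ∈ X) (hy : y ∈ X) (h1 : x ∉ 𝐍(𝔅 a)) (h2 : y ∉ 𝐍(𝔅 a)) :
    x * y ∈ 𝐍(𝔅 a) := norm_of_conj_eq (by
  rw [← conj_conj, f.conj_blk hy, h.swap f hy h2, ← h.swap f (inv_mem hx) fun e => h1 (inv_mem_iff.1 e),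
    ← f.conj_blk (inv_mem hx), conj_inv_conj])

theorem Cov.swap_eq (h : Cov X F a c) (f : FR 𝐕(X) X F) (hs : s ∈ X) (h1 : s ∉ 𝐍(𝔅 a)) (hu : u ∈ 𝔚(a)) (hv : v ∈ 𝔚(c))
    (e : s * (u * v) * s⁻¹ = u * v) : s * u * s⁻¹ = v := by
  have h2 : s * u * s⁻¹ ∈ 𝔚(c) := by rw [← h.swap f hs h1, ← conj_W f hs]; exact conj_mem_conj.2 hu
  have h3 : s * v * s⁻¹ ∈ 𝔚(a) := by
    rw [← h.symm.swap f hs fun e => h1 (h.symm.norm' f hs e), ← conj_W f hs]; exact conj_mem_conj.2 hv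
  have h4 : v⁻¹ * (s * u * s⁻¹) = u * (s * v * s⁻¹)⁻¹ := by
    rw [inv_mul_eq_iff_eq_mul, ← mul_assoc, ← ea_comm f.red.elemAb (f.P_le h.ta hu) (f.P_le h.tc hv), ← e]; group
  by_contra n
  have h5 := f.same h.ta h.tc (h4 ▸ mul_mem hu (inv_mem h3)) (mul_mem (inv_mem hv) h2) fun e => n (inv_mul_eq_one.1 e).symm
  exact h1 (norm_of_conj_eq ((f.conj_blk hs).trans ((h.swap f hs h1).trans h5)))

theorem Cov.dec_fix (h : Cov X F a c) (f : FR 𝐕(X) X F) (e : 𝔅 a ≠ 𝔅 c) (hx : x ∈ X) (h1 : x ∈ 𝐍(𝔅 a)) (hu : u ∈ 𝔚(a))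
    (hv : v ∈ 𝔚(c)) (h2 : x * (u * v) * x⁻¹ = u * v) : x * u * x⁻¹ = u ∧ x * v * x⁻¹ = v :=
  f.dec_fix h.ta hx h1 hu (cent_symm (le_sup_left.trans (far f h.tc h.ta e)) hv) h2

theorem Cn.or_eq (h : Cn 𝐕(X) a r) (f : FR 𝐕(X) X F) (ha : 𝔗 a) (hu : u ∈ 𝔚(a)) (hx : x ∉ 𝐂(𝔚(a))) (h1 : x * u * x⁻¹ = u)
    (h2 : x * r * x⁻¹ = r) : u = 1 ∨ u = r :=
  or_iff_not_imp_left.2 fun e => f.fix_eq ha hu (h.mem f ha) e h.1 hx h1 h2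

namespace Vs

variable (h : Vs S X) (f : FR 𝐕(X) X F)
include h f

theorem cov_of_le (ha : 𝔗 a) (h1 : a ∈ S) (e : S ≤ 𝐍(𝔅 a)) : Cov X F a a := ⟨ha, ha, fun b hb => .inl (by
  obtain ⟨s, hs, e'⟩ := h.exists_conj f ha h1 hb
  rw [← e', ← f.conj_blk (h.le hs), conj_eq_of_norm (e hs)])⟩

theorem cov_of_not (ha : 𝔗 a) (hs : s ∈ S) (e : s ∉ 𝐍(𝔅 a)) : Cov X F a (s * a * s⁻¹) :=
  have t := ha.conj f.hn (h.le hs)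
  ⟨ha, t, fun _ hb => ((h.three' f ha t hb).resolve_left fun c =>
    e (norm_of_conj_eq ((f.conj_blk (h.le hs)).trans c.symm))).imp Eq.symm Eq.symm⟩

theorem mem_Q_of (v : Cov X F a c) (ha : a ∈ S) (hx : x ∈ X) (h1 : x ∈ 𝐂(𝔚(a))) (h2 : x ∈ 𝐂(𝔚(c))) : x ∈ 𝐐(X) := by
  have nE := norm_inf (le_norm X) (norm_cent (v.norm f))
  have h3 : X ⊓ 𝐂(𝔚(a) ⊔ 𝔚(c)) ≤ S := by_contra fun e => by
    obtain ⟨_, -, hk, hk'⟩ := exists_comm f v.ta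
    obtain ⟨c, hc, p, hp, e⟩ := h.mul inf_le_left e (h.le.trans nE) (f.blk_le' v.ta hk)
    obtain ⟨u, hu⟩ := exists_cn v.ta
    have h3 := cent_anti le_sup_left hc.2
    rw [← e] at hk hk'
    exact hu.1 (fix_one f v.ta hk hk' (hu.mem f v.ta) (conj_eq_of_cent1 (mul_mem (cent_le_cent1 (hu.mem f v.ta) h3)
      (cent1_of_conj_eq (h.fixw f v.ta (h.mem_core ha) hu hp
        ((mul_mem_cancel_left (norm_of_cent le_rfl h3)).1 (right_norm_comm _ _ hk)))))))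
  exact le_core inf_le_left nE (h.pg.to_le h3) ⟨hx, by rw [cent_sup]; exact ⟨h1, h2⟩⟩

theorem mul_cent (ha : 𝔗 a) (h1 : a ∈ S) (hx : x ∈ S) (hy : y ∈ S) (nx : x ∈ 𝐍(𝔅 a)) (ny : y ∈ 𝐍(𝔅 a)) (h2 : x ∉ 𝐂(𝔚(a)))
    (h3 : y ∉ 𝐂(𝔚(a))) : x * y ∈ 𝐂(𝔚(a)) :=
  let ⟨_, hu⟩ := exists_cn ha
  k4_mul_mem_cent (f.k4 ha) (hu.mem f ha) hu.1 (f.normP' ha (h.le hx) nx) (f.normP' ha (h.le hy) ny)
    (h.fixw' f ha h1 hu hx nx) (h.fixw' f ha h1 hu hy ny) h2 h3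

theorem mem_of_norm (v : Cov X F a c) (ha : a ∈ S) (hc : c ∈ S) (h1 : a ∈ K) (h2 : c ∈ K) (h3 : 𝐐(X) ≤ K) (hs : s ∈ S)
    (hn : s ∈ 𝐍(𝔅 a)) : s ∈ K := by
  wlog e : s ∈ 𝐂(𝔚(a)) generalizing s
  · exact (mul_mem_cancel_left h1).1 (this (mul_mem ha hs) (mul_mem (f.norm_blk f.hn v.ta) hn)
      (h.mul_cent f v.ta ha ha hs (f.norm_blk f.hn v.ta) hn (f.not_cent v.ta) e))
  by_cases e' : s ∈ 𝐂(𝔚(c))
  · exact h3 (h.mem_Q_of f v ha (h.le hs) e e')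
  · exact (mul_mem_cancel_left h2).1 (h3 (h.mem_Q_of f v ha (h.le (mul_mem hc hs))
      (mul_mem (far f v.ta v.tc (fun c => e' (c ▸ e)) (mem_sup_right (mem_zpowers c))) e)
      (h.mul_cent f v.tc hc hc hs (f.norm_blk f.hn v.tc) (v.norm' f (h.le hs) hn) (f.not_cent v.tc) e')))

theorem W_inf (v : Cov X F a c) (hn : 𝐕(X) ≤ 𝐍(R)) (ha : a ∈ R) (hc : c ∈ R) (hw : w ∈ 𝔚(a) ⊔ 𝔚(c)) (h1 : w ∈ 𝐂(R)) :
    w ∈ R := by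
  have key : ∀ {a u}, 𝔗 a → a ∈ R → u ∈ 𝔚(a) → a * u * a⁻¹ = u → u ∈ R := fun {a u} ha h1 hu e => by
    obtain ⟨r, hr⟩ := exists_cn ha
    rcases hr.or_eq f ha hu (f.not_cent ha) e (hr.fix f ha) with rfl | rfl
    · exact one_mem _
    · obtain ⟨-, v, hv, rfl⟩ := hr
      exact mul_mem (conj_mem_of_norm (hn hv) h1) (inv_mem h1)
  have c1 : ∀ a ∈ R, a * w * a⁻¹ = w := fun a ha => by rw [BG.mem_cent.1 h1 a ha, mul_inv_cancel_right]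
  by_cases e : 𝔅 a = 𝔅 c
  · rw [← e, sup_idem] at hw; exact key v.ta ha hw (c1 a ha)
  obtain ⟨x, hx, y, hy, rfl⟩ := v.dec f hw
  exact mul_mem (key v.ta ha hx (v.dec_fix f e v.ta.mem (f.norm_blk f.hn v.ta) hx hy (c1 a ha)).1)
    (key v.tc hc hy (v.dec_fix f e v.tc.mem (norm_blk' f v.ta v.tc) hx hy (c1 c hc)).2)

theorem exists_three (he : IsElementaryAbelian 2 𝐐(X)) (ha : 𝔗 a) : ∃ k ∈ 𝔅 a, k ∉ 𝐂(𝐕(X)) ∧ k ^ 3 = 1 := by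
  obtain ⟨_, -, hk, hk'⟩ := exists_comm f ha
  have n := (f.blk_le' ha).trans (norm_cent f.hn)
  refine ⟨_, mul_mem hk hk, fun e => hk' (mem_of_sq_mem n (f.idx a ha) hk e), ?_⟩
  rw [(Commute.refl _).mul_pow]
  exact sq_of_elemAb he (h.mem_Q' (pow_mem (f.blk_le' ha hk) 3) (cube_mem n (f.idx a ha) hk))

theorem trans (he : IsElementaryAbelian 2 𝐐(X)) (ha : 𝔗 a) (hu : u ∈ 𝔚(a)) (u1 : u ≠ 1) (hv : v ∈ 𝔚(a)) (v1 : v ≠ 1) :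
    ∃ k ∈ 𝔅 a, k * u * k⁻¹ = v := by
  obtain ⟨k, h1, h2, h3⟩ := h.exists_three f he ha
  have : Fact (Nat.Prime 3) := ⟨by norm_num⟩
  rcases k4_trans_of_odd (f.k4 ha) (right_norm_comm _ _ h1) (by
    rw [orderOf_eq_prime h3 fun e => h2 (e ▸ one_mem _)]; decide) (fun e => h2 (f.faith a ha ⟨h1, e⟩)) hu u1 hv v1
    with rfl | rfl | rfl
  exacts [⟨1, one_mem _, by simp⟩, ⟨k, h1, rfl⟩, ⟨k⁻¹, inv_mem h1, by group⟩]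

theorem conj_two (he : IsElementaryAbelian 2 𝐐(X)) (v : Cov X F a c) (hs : s ∈ X) (h1 : s ∉ 𝐍(𝔅 a)) (hy : y ∈ 𝔚(a) ⊔ 𝔚(c))
    (y1 : y ≠ 1) (h2 : s * y * s⁻¹ = y) (hu : u ∈ 𝔚(a)) (u1 : u ≠ 1) (hw : w ∈ 𝔚(c)) (w1 : w ≠ 1) :
    ∃ g, g * (u * w) * g⁻¹ = y := by
  obtain ⟨x, hx, z, hz, rfl⟩ := v.dec f hy
  have e := v.swap_eq f hs h1 hx hz h2
  have x1 : x ≠ 1 := by rintro rfl; exact y1 (by simpa using e.symm)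
  have n : 𝔅 a ≠ 𝔅 c := fun c => h1 (norm_of_conj_eq ((f.conj_blk hs).trans ((v.swap f hs h1).trans c.symm)))
  obtain ⟨k, k1, rfl⟩ := h.trans f he v.ta hu u1 hx x1
  obtain ⟨l, l1, rfl⟩ := h.trans f he v.tc hw w1 hz (e ▸ conj_ne_one x1)
  refine ⟨k * l, ?_⟩
  calc k * l * (u * w) * (k * l)⁻¹ = k * (l * u * l⁻¹) * k⁻¹ * (k * (l * w * l⁻¹) * k⁻¹) := by group
    _ = _ := by rw [conj_eq_of_cent1 (cent_le_cent1 hu (far f v.ta v.tc n.symm (mem_sup_left l1))),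
      conj_eq_of_cent1 (cent_le_cent1 hz (far f v.tc v.ta n (mem_sup_left k1)))]

omit h in
theorem mem_W (ha : 𝔗 a) (hk : k ∈ 𝔅 a) (hq : q ∈ 𝐕(X)) (h1 : k ^ 3 = 1) (h2 : (k * q) ^ 3 = 1) : q ∈ 𝔚(a) := by
  have e := sq_of_elemAb f.red.elemAb hq
  have h3 := mul_mem (comm_mem_comm hq hk) (comm_mem_comm hq (mul_mem hk hk))
  have h4 := ea_comm f.red.elemAb hq (conj_mem_of_norm (f.hn (f.blk_le' ha hk)) hq)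
  rw [show (k * q) ^ 3 = k * q * k⁻¹ * (k * k * q * (k * k)⁻¹) * k ^ 3 * q by simp only [pow_three]; group, h1, mul_one,
    mul_eq_one_iff_eq_inv] at h2
  rw [inv_eq_of_mul_eq_one_right e] at h2 h3
  rwa [show q * k * q * k⁻¹ * (q * (k * k) * q * (k * k)⁻¹) = q * (k * q * k⁻¹ * q) * (k * k * q * (k * k)⁻¹) by group,
    ← h4, ← mul_assoc q q, e, one_mul, h2] at h3

end Vs

local notation "𝔅'" => blk 𝐕(Y) Y F'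
local notation "𝔚'(" a ")" => ⁅𝐕(Y), blk 𝐕(Y) Y F' a⁆
local notation "𝔗'" => Tv 𝐕(Y) Y

/-- An edge with critical distance 1. -/
structure B1 (S X Y F F' : Subgroup G) : Prop where
  vs : Vs S X
  vs' : Vs S Y
  bot : ∀ N ≤ S, X ≤ 𝐍(N) → Y ≤ 𝐍(N) → N = ⊥
  f : FR 𝐕(X) X F
  f' : FR 𝐕(Y) Y F'

theorem B1.symm (h : B1 S X Y F F') : B1 S Y X F' F := ⟨h.vs', h.vs, fun N a b c => h.bot N a c b, h.f', h.f⟩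

theorem Am.b1 (h : Am X Y) : (∃ F F', B1 (X ⊓ Y) X Y F F') ∧ ∃ t ∈ 𝐕(Y), 𝔗 t := by
  have e := adj_inl_inr (M₁ := X) (M₂ := Y) 1
  have h1 := h.vs e
  have h2 := h.vs e.symm
  have h3 := h.cd_one.exists_tv (h.crit e.symm)
  simp only [vertexZ, G_base₁, G_base₂] at h1 h2 h3
  obtain ⟨F, f⟩ := h1.fr
  obtain ⟨F', f'⟩ := h2.fr
  exact ⟨⟨F, F', h1, inf_comm Y X ▸ h2, h.e₁.bot, f, f'⟩, h3⟩

/-- Transvections `t ∈ V(Y)` on `V(X)` and `a ∈ V(X)` on `V(Y)` with the same centre. -/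
structure Qd (X Y F F' : Subgroup G) (t a r : G) : Prop where
  tt : Tv 𝐕(X) X t
  ta : Tv 𝐕(Y) Y a
  mt : t ∈ ⁅𝐕(Y), blk 𝐕(Y) Y F' a⁆
  ma : a ∈ ⁅𝐕(X), blk 𝐕(X) X F t⁆
  ct : Cn 𝐕(X) t r
  ca : Cn 𝐕(Y) a r
  eq : t * a * t⁻¹ * a⁻¹ = r

namespace B1

variable (h : B1 S X Y F F')
include h

theorem V_le : 𝐕(X) ≤ S := h.vs.V_le_Q.trans h.vs.Q_le

theorem pair (h1 : t ∈ 𝐕(Y)) (h2 : 𝔗 t) : ∃ a ∈ 𝔚(t), ∃ r, 𝔗' a ∧ Cn 𝐕(X) t r ∧ Cn 𝐕(Y) a r ∧ t * a * t⁻¹ * a⁻¹ = r := by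
  obtain ⟨a, ha, e⟩ := SetLike.not_le_iff_exists.1 (le_cent1_iff.not.2 (h.f.not_cent h2))
  obtain ⟨r, hr⟩ := exists_cn h2
  have h3 := h.f.P_le h2 ha
  have h5 : ∀ y ∈ 𝐕(Y), Cz r y a := fun y hy => hr.cz h.f h2 ha (h.vs.le (h.symm.V_le hy)) (cent_le_cent1 h1 (h.f'.ab hy))
  have h7 := h.f.P_le h2 (hr.mem h.f h2)
  have h8 : t * a * t⁻¹ * a⁻¹ = r := by
    rw [(h5 t h1).eq fun c => e (mem_cent1_symm c), ea_comm h.vs.ea h3 h7, mul_inv_cancel_right]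
  have h9 : r ∈ 𝐕(Y) := by
    rw [← h8, mul_assoc, mul_assoc, ← mul_assoc a]
    exact mul_mem h1 (conj_mem_of_norm (norm_Z (h.vs'.le (h.V_le h3))) (inv_mem h1))
  exact ⟨a, ha, r, ⟨h.vs'.le (h.V_le h3), h.vs.V_sq h3, idx_cz (h.vs.V_sq h7) (h.f'.ab.trans (cent_le_cent1 h9)) h5
    fun c => e (mem_cent1_symm (c h1))⟩, hr, ⟨hr.1, t, h1, h8⟩, h8⟩

theorem qd_symm (q : Qd X Y F F' t a r) : Qd Y X F' F a t r := ⟨q.ta, q.tt, q.ma, q.mt, q.ca, q.ct, by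
  rw [← h.vs.V_inv (h.f.P_le q.tt (q.ct.mem h.f q.tt)), ← q.eq]; group⟩

theorem exists_qd (h1 : t ∈ 𝐕(Y)) (h2 : 𝔗 t) : ∃ t a r, Qd X Y F F' t a r := by
  obtain ⟨a, a1, r, a2, a3, a4, -⟩ := h.pair h1 h2
  obtain ⟨u, u1, v, u2, u3, u4, u5⟩ := h.symm.pair (h.f.P_le h2 a1) a2
  obtain rfl := a4.eq h.f' a2 u3
  exact ⟨u, a, v, h.symm.qd_symm ⟨a2, u2, (h.f.same h2 u2 (a3.mem h.f h2) (u4.mem h.f u2) u4.1).symm ▸ a1, u1, a4, u4, u5⟩⟩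

theorem qd_conj (q : Qd X Y F F' t a r) (hs : s ∈ S) : Qd X Y F F' (s * t * s⁻¹) (s * a * s⁻¹) (s * r * s⁻¹) :=
  ⟨q.tt.conj h.f.hn (h.vs.le hs), q.ta.conj h.f'.hn (h.vs'.le hs), conj_W h.f' (h.vs'.le hs) ▸ conj_mem_conj.2 q.mt,
    conj_W h.f (h.vs.le hs) ▸ conj_mem_conj.2 q.ma, conj_eq_of_norm (h.f.hn (h.vs.le hs)) ▸ q.ct.conj s,
    conj_eq_of_norm (h.f'.hn (h.vs'.le hs)) ▸ q.ca.conj s, by rw [← q.eq]; group⟩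

theorem qd_norm (q : Qd X Y F F' t a r) (hs : s ∈ S) (h1 : s ∈ 𝐍(𝔅' a)) : s ∈ 𝐍(𝔅 t) := by
  have q' := h.qd_conj q hs
  rw [h.vs'.fixw' h.f' q.ta (h.V_le (h.f.P_le q.tt q.ma)) q.ca hs h1] at q'
  exact norm_of_conj_eq ((h.f.conj_blk (h.vs.le hs)).trans
    (h.f.same q.tt q'.tt (q.ct.mem h.f q.tt) (q'.ct.mem h.f q'.tt) q.ct.1))

end B1

/-- The configuration at an edge. -/
structure Cf (S X Y F F' : Subgroup G) (t a r u b z : G) : Prop extends B1 S X Y F F' where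
  q₁ : Qd X Y F F' t a r
  q₂ : Qd X Y F F' u b z
  v : Cov X F t u
  v' : Cov Y F' a b

theorem B1.cf (h : B1 S X Y F F') (q : Qd X Y F F' t a r) (hs : s ∈ S) (e : s ∉ 𝐍(𝔅 t)) :
    Cf S X Y F F' t a r (s * t * s⁻¹) (s * a * s⁻¹) (s * r * s⁻¹) :=
  ⟨h, q, h.qd_conj q hs, h.vs.cov_of_not h.f q.tt hs e, h.vs'.cov_of_not h.f' q.ta hs fun c => e (h.qd_norm q hs c)⟩

theorem B1.cf' (h : B1 S X Y F F') (q : Qd X Y F F' t a r) (e : S ≤ 𝐍(𝔅 t)) : Cf S X Y F F' t a r t a r :=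
  ⟨h, q, q, h.vs.cov_of_le h.f q.tt (h.symm.V_le (h.f'.P_le q.ta q.mt)) e, h.vs'.cov_of_le h.f' q.ta
    (h.V_le (h.f.P_le q.tt q.ma)) fun _ hs => h.symm.qd_norm (h.qd_symm q) hs (e hs)⟩

namespace Cf

variable (h : Cf S X Y F F' t a r u b z)
include h

theorem symm : Cf S Y X F' F a t r b u z := ⟨h.toB1.symm, h.qd_symm h.q₁, h.qd_symm h.q₂, h.v', h.v⟩

theorem swap : Cf S X Y F F' u b z t a r := ⟨h.toB1, h.q₂, h.q₁, h.v.symm, h.v'.symm⟩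

theorem aV : a ∈ 𝐕(X) := h.f.P_le h.q₁.tt h.q₁.ma

theorem rV : r ∈ 𝐕(X) := h.f.P_le h.q₁.tt (h.q₁.ct.mem h.f h.q₁.tt)

theorem aS : a ∈ S := h.V_le h.aV

theorem Q_norm : 𝐐(X) ≤ 𝐍(𝔅' a) := fun _ hq => norm_of_conj_eq (by
  rw [h.f'.conj_blk (h.vs'.le (h.vs.Q_le hq)), conj_eq_of_cent1 (cent_le_cent1 h.aV (h.vs.V_cent hq))])

theorem Q_dec (hq : q ∈ 𝐐(X)) : ∃ w ∈ 𝔚(t) ⊔ 𝔚(u), ∃ p ∈ 𝐐(X) ⊓ 𝐐(Y), w * p = q := by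
  obtain ⟨w, hw, p, hp, rfl⟩ := (mem_sup_right_norm ((h.v.le h.f).trans (h.V_le.trans (h.vs'.le.trans
    (le_normalizer_core 2 Y))))).1 (h.vs'.mem_of_norm h.f' h.v' h.aS h.swap.aS (mem_sup_left (mem_sup_left h.q₁.ma))
    (mem_sup_left (mem_sup_right h.q₂.ma)) le_sup_right (h.vs.Q_le hq) (h.Q_norm hq))
  exact ⟨w, hw, p, ⟨(mul_mem_cancel_left (h.vs.V_le_Q (h.v.le h.f hw))).1 hq, hp⟩, rfl⟩

theorem sq_le : closure {x | ∃ q ∈ 𝐐(X), q * q = x} ≤ closure {x | ∃ q ∈ 𝐐(Y), q * q = x} := closure_mono (by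
  rintro _ ⟨q, hq, rfl⟩
  obtain ⟨w, hw, p, hp, rfl⟩ := h.Q_dec hq
  refine ⟨p, hp.2, ?_⟩
  rw [mul_assoc, ← mul_assoc p, ← BG.mem_cent.1 (h.vs.V_cent hp.1) w (h.v.le h.f hw), mul_assoc, ← mul_assoc w,
    h.vs.V_sq (h.v.le h.f hw), one_mul])

theorem ea : IsElementaryAbelian 2 𝐐(X) := by
  have n : ∀ X : Subgroup G, X ≤ 𝐍(closure {x | ∃ q ∈ 𝐐(X), q * q = x}) := fun X => norm_of_conj_le fun g hg =>
    conj_le_iff_le_inv_conj.2 ((closure_le _).2 (by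
      rintro _ ⟨q, hq, rfl⟩
      exact mem_conj.2 (subset_closure ⟨_, conj_mem_of_norm (le_normalizer_core 2 X hg) hq, by group⟩)))
  have := h.bot _ ((closure_le _).2 (by rintro _ ⟨q, hq, rfl⟩; exact h.vs.Q_le (mul_mem hq hq))) (n X)
    (le_antisymm h.sq_le h.symm.sq_le ▸ n Y)
  exact ea_of_sq fun q hq => mem_bot.1 (this.le (subset_closure ⟨q, hq, rfl⟩))

theorem ab : 𝐐(X) ≤ 𝐂(𝐐(X)) := abelian_cent h.ea.1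

theorem Q_max : 𝐐(X) ∈ maxIn 2 S := ⟨h.vs.Q_le, h.ea, fun A h1 h2 => by
  obtain ⟨F₀, m⟩ := exists_mm h.vs.sol ⟨core_le 2 X, le_normalizer_core 2 X, h.ea, fun K h1 h2 h3 =>
    (le_core h1 h2 (h.vs.chp.isPGroup_of_res_le h1 h3)).trans h.ab⟩
  have h3 := m.q1 (h1.trans h.vs.le) fun a ha => sq_of_elemAb h2 ha ▸ one_mem _
  rw [← PGroup.card_inf_mul_relIndex 𝐂(𝐐(X)) A, ← PGroup.card_inf_mul_relIndex 𝐂(A) 𝐐(X)]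
  exact Nat.mul_le_mul (card_le_of_le (le_inf (inf_le_right.trans (abelian_cent h2.1))
    (h.vs.chp.le_core (inf_le_right.trans (h1.trans h.vs.le)) inf_le_left))) h3⟩

theorem mem_T (hs : s ∈ S) (hn : s ∈ 𝐍(𝔅 t)) : s ∈ 𝐐(X) ⊔ 𝐐(Y) :=
  h.vs.mem_of_norm h.f h.v h.symm.aS h.symm.swap.aS (mem_sup_right (h.vs'.V_le_Q h.symm.aV))
    (mem_sup_right (h.vs'.V_le_Q h.symm.swap.aV)) le_sup_left hs hn

theorem T_norm : 𝐐(X) ⊔ 𝐐(Y) ≤ 𝐍(𝔅 t) :=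
  sup_le (le_norm_of_le ((le_inf (core_le 2 X) h.vs.V_cent).trans (h.f.D_le_blk h.f.hn))) h.symm.Q_norm

theorem T_le : 𝐐(X) ⊔ 𝐐(Y) ≤ S := sup_le h.vs.Q_le h.vs'.Q_le

theorem J_eq : 𝐉(S) = 𝐐(X) ⊔ 𝐐(Y) := le_antisymm (thompsonSubgroupOf_le_iff.2 fun A hA =>
  h.f.ff1 A (mem_maxIn_of_sylowIn h.vs.le h.vs.odd hA) _
    (fun _ hx => mem_sup_left (h.vs.mem_Q' (h.vs.le (hA.1 hx.1)) hx.2))
    fun _ ha ha' => h.mem_T (hA.1 ha) (norm_blk' h.f h.q₁.tt ha'))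
  (sup_le (le_thompsonSubgroupOf h.Q_max) (le_thompsonSubgroupOf h.symm.Q_max))

theorem mul_mem_T (hx : x ∈ S) (hy : y ∈ S) (h1 : x ∉ 𝐐(X) ⊔ 𝐐(Y)) (h2 : y ∉ 𝐐(X) ⊔ 𝐐(Y)) : x * y ∈ 𝐐(X) ⊔ 𝐐(Y) :=
  h.mem_T (mul_mem hx hy) (h.v.mul_norm h.f (h.vs.le hx) (h.vs.le hy) (fun e => h1 (h.mem_T hx e)) fun e => h2 (h.mem_T hy e))

theorem Q_le_W (e : 𝐐(X) ⊓ 𝐐(Y) ≤ ⁅S, S⁆) : 𝐐(X) ≤ 𝔚(t) ⊔ 𝔚(u) := by
  have n := h.vs.le.trans (h.v.norm h.f)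
  have n' := h.vs'.le.trans (h.v'.norm h.f')
  have l := (h.v.le h.f).trans h.vs.V_le_Q
  have l' := (h.v'.le h.f').trans h.vs'.V_le_Q
  have n0 : S ≤ 𝐍(𝐐(X) ⊓ 𝐐(Y)) := norm_inf (h.vs.le.trans (le_normalizer_core 2 X)) (h.vs'.le.trans (le_normalizer_core 2 Y))
  have n1 := norm_comm n0 (le_norm S)
  have d := fun q => h.Q_dec (q := q)
  have d' := fun q => h.symm.Q_dec (q := q)
  have k := fun w => h.vs'.W_inf (w := w) h.f' h.v' (h.symm.V_le.trans n) (mem_sup_left h.q₁.ma) (mem_sup_right h.q₂.ma)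
  generalize 𝔚(t) ⊔ 𝔚(u) = W at *
  generalize 𝔚'(a) ⊔ 𝔚'(b) = W' at *
  have nM := norm_sup (norm_sup n n') n1
  have c : ∀ {A}, A ≤ S → S ≤ 𝐍(A) → A ≤ W ⊔ W' → A ≤ cmod S (W ⊔ W' ⊔ ⁅𝐐(X) ⊓ 𝐐(Y), S⁆) := fun h1 h2 h3 =>
    le_cmod.2 ⟨h1.trans nM, (comm_le_right h2).trans (h3.trans le_sup_left)⟩
  have c0 : 𝐐(X) ⊓ 𝐐(Y) ≤ cmod S (W ⊔ W' ⊔ ⁅𝐐(X) ⊓ 𝐐(Y), S⁆) :=
    le_cmod.2 ⟨(inf_le_left.trans h.vs.Q_le).trans nM, (commutator_comm _ _).le.trans le_sup_right⟩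
  have h1 : 𝐐(X) ⊔ 𝐐(Y) ≤ cmod S (W ⊔ W' ⊔ ⁅𝐐(X) ⊓ 𝐐(Y), S⁆) := sup_le (fun q hq => by
    obtain ⟨w, hw, p, hp, rfl⟩ := d _ hq
    exact mul_mem (c (l.trans h.vs.Q_le) n le_sup_left hw) (c0 hp)) fun q hq => by
    obtain ⟨w, hw, p, hp, rfl⟩ := d' _ hq
    exact mul_mem (c (l'.trans h.vs'.Q_le) n' le_sup_right hw) (c0 ⟨hp.2, hp.1⟩)
  have h2 : ⁅S, S⁆ ≤ W ⊔ W' ⊔ ⁅𝐐(X) ⊓ 𝐐(Y), S⁆ := (le_cmod.1 fun y hy => by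
    by_cases e : y ∈ 𝐐(X) ⊔ 𝐐(Y)
    · exact h1 e
    refine mem_cmod.2 ⟨nM hy, fun x hx => ?_⟩
    by_cases e' : x ∈ 𝐐(X) ⊔ 𝐐(Y)
    · simpa [mul_assoc] using inv_mem ((mem_cmod.1 (h1 e')).2 y hy)
    · simpa [mul_assoc] using conj_mem_of_norm (nM (inv_mem hy))
        (inv_mem ((mem_cmod.1 (h1 (h.mul_mem_T hy hx e e'))).2 y hy))).2
  have h3 : 𝐐(X) ⊓ 𝐐(Y) ≤ W := eq_of_le_sup_comm h.vs.pg (inf_le_left.trans h.vs.Q_le) n fun q hq => by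
    obtain ⟨x, hx, y, hy, rfl⟩ := (mem_sup_right_norm ((sup_le (l.trans h.vs.Q_le) (l'.trans h.vs'.Q_le)).trans n1)).1
      (h2 (e hq))
    obtain ⟨w, hw, w', hw', rfl⟩ := (mem_sup_left_norm ((l'.trans h.vs'.Q_le).trans n)).1 hx
    have := (mul_mem_cancel_left (l hw)).1 ((mul_mem_cancel_right (comm_le_left n0 hy)).1 hq).1
    exact mul_mem (mem_sup_left (mul_mem hw (k _ hw' (cent_anti l (h.ab this))))) (mem_sup_right hy)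
  intro q hq
  obtain ⟨w, hw, p, hp, rfl⟩ := d _ hq
  exact mul_mem hw (h3 hp)

end Cf

end Cfsg.Lib.LFE
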