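import Cfsg.Agent.Lib.LFE.B

/-! Pairs of soluble subgroups over `C(Ω₁Z(T))` without a common normal 2-subgroup. -/

set_option autoImplicit false
set_option linter.unusedSectionVars false

namespace Cfsg.Lib.LFE

open Cfsg Subgroup Cfsg.Lib.Transfer Cfsg.Lib.BG Cfsg.Lib.Loc Cfsg.Lib.Amalgam Cfsg.Lib.PLocal Cfsg.Lib.JComp
open Cfsg.Lib.NG hiding CD NV
open Cfsg.Lib.Inv hiding conj_mem_of_mem_normalizer

variable {G : Type*} [Group G] [Finite G] {H K T X Y : Subgroup G}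

/-- The overgroups of `T` with non-trivial `O₂` are soluble, of characteristic 2 and 3-rank at most 2, and satisfy the
pushing-up theorem. -/
structure Hy (T : Subgroup G) : Prop where
  syl : FSyl 2 T ⊤
  sol : ∀ H, T ≤ H → 𝐐(H) ≠ ⊥ → Group.IsSolvable H
  chp : ∀ H, T ≤ H → 𝐐(H) ≠ ⊥ → IsChP 2 H
  rk : ∀ H : Subgroup G, 𝐐(H) ≠ ⊥ → rk 3 H ≤ 2
  pu : ∀ M H P R : Subgroup G, T ≤ M → 𝐐(M) ≠ ⊥ → T ≤ H → 𝐐(H) ≠ ⊥ → T ≤ P → ¬ H ≤ P →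
    (∀ Y, T ≤ Y → Y ≤ H → ¬ Y ≤ P → Y = H) → R ≠ ⊥ → R ≤ T → FSyl 2 R (𝐑(H) ⊔ R) → M ≤ 𝐍(R) →
    ∃ R₀ ≠ ⊥, R₀ ≤ R ∧ M ⊔ H ≤ 𝐍(R₀)

/-- A pair. -/
structure Pr (T X Y : Subgroup G) : Prop where
  c₁ : 𝐂(𝛀(T)) ≤ X
  c₂ : 𝐂(𝛀(T)) ≤ Y
  q₁ : 𝐐(X) ≠ ⊥
  q₂ : 𝐐(Y) ≠ ⊥
  bot : 𝐐(X ⊔ Y) = ⊥

/-- `X ∩ Y` is maximal in `X`. -/
def Mx (X Y : Subgroup G) : Prop := ∀ Z x, X ⊓ Y ≤ Z → x ∈ X → x ∈ Z → x ∉ X ⊓ Y → X ≤ Z

theorem Pr.symm (p : Pr T X Y) : Pr T Y X := ⟨p.c₂, p.c₁, p.q₂, p.q₁, sup_comm X Y ▸ p.bot⟩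

theorem Pr.le₁ (p : Pr T X Y) : T ≤ X := (le_centralizer_oz T).trans p.c₁

theorem Hy.core_ne (h : Hy T) (h0 : 𝐐(H) ≠ ⊥) (h1 : T ≤ K) (h2 : K ≤ H) : 𝐐(K) ≠ ⊥ :=
  ne_bot_mono h0 (core_le_core h2 ((h.syl.of_le (h1.trans h2) le_top).core_le.trans h1))

theorem Hy.ed (h : Hy T) (p : Pr T X Y) (m : Mx X Y) : Ed X Y := by
  have s := h.syl.of_le p.le₁ le_top
  have s' := h.syl.of_le p.symm.le₁ le_top
  have l := le_inf s.le s'.le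
  have b : ∀ N ≤ X ⊓ Y, X ≤ 𝐍(N) → Y ≤ 𝐍(N) → N = ⊥ := fun N h1 h2 h3 => by_contra fun e =>
    ((h.chp X s.le p.q₁).of_le_normalizer (h1.trans inf_le_left) h2).core_ne_bot e (eq_bot_mono p.bot (le_core
      ((core_le 2 N).trans (h1.trans inf_le_sup)) ((sup_le h2 h3).trans (normalizer_le_normalizer_core 2 N))
      (core_pgroup 2 N)))
  refine ⟨⟨inf_le_left, h.sol X s.le p.q₁, h.chp X s.le p.q₁, fun e => s.idx (e.trans (relIndex_dvd_of_le_left X l)), m,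
    inf_le_right.trans ((cent_anti s.oz_le).trans (le_inf p.c₁ p.c₂)), h.rk X p.q₁,
    ne_bot_mono (oz_ne_bot s.pgroup (ne_bot_mono p.q₁ s.core_le)) s.oz_le⟩, b, fun K h1 h2 h3 h4 h5 => ?_⟩
  obtain ⟨H, h6, ⟨h7, h8⟩, h9⟩ := Core.exists_minimal_le (P := fun H => T ≤ H ∧ ¬ H ≤ X ⊓ Y) (H := T ⊔ K)
    ⟨le_sup_left, fun e => h3 (le_sup_right.trans e)⟩
  have h10 := h6.trans (sup_le s.le h1)
  have h11 : 𝐑(H) ≤ K := (res_mono h6).trans ((res_sup_of_isPGroup s.pgroup (s.le.trans h2)).le.trans (res_le 2 K))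
  obtain ⟨S, h12, h13⟩ := exists_fsyl_ge (core_pgroup 2 Y) (le_sup_right : _ ≤ 𝐑(H) ⊔ 𝐐(Y))
  have h14 : S = 𝐐(Y) := le_antisymm (fun x hx => by
    obtain ⟨k, hk, y, hy, rfl⟩ := (mem_sup_left_norm (s'.core_le.trans (h7.trans (le_normalizer_res 2 H)))).1 (h13.le hx)
    have := (mul_mem_cancel_right (h12 hy)).1 hx
    exact mul_mem (h5 ⟨h11 hk, h4 _ inf_le_right h13.pgroup.to_inf_left ⟨this, h11 hk⟩⟩) hy) h12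
  obtain ⟨R, r1, r2, r3⟩ := h.pu Y H (X ⊓ Y) 𝐐(Y) s'.le p.q₂ h7 (h.core_ne p.q₁ h7 h10) l h8
    (fun Z a b c => h9 Z ⟨a, c⟩ b) p.q₂ s'.core_le (h14 ▸ h13) (le_normalizer_core 2 Y)
  obtain ⟨x, hx, e⟩ := SetLike.not_le_iff_exists.1 h8
  exact r1 (b R (r2.trans (s'.core_le.trans l)) (m _ x (inf_le_right.trans (le_sup_left.trans r3)) (h10 hx)
    (r3 (mem_sup_right hx)) e) (le_sup_left.trans r3))

/-- The intersection is as large as possible. -/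
def Big (T X Y : Subgroup G) : Prop := ∀ X' Y', Pr T X' Y' → Nat.card ↥(X' ⊓ Y') ≤ Nat.card ↥(X ⊓ Y)

theorem Hy.exists_mx (h : Hy T) (p : Pr T X Y) (b : Big T X Y) :
    ∃ X' ≤ X, X' ⊓ Y = X ⊓ Y ∧ Pr T X' Y ∧ ∀ Y', X ⊓ Y' = X ⊓ Y → Mx X' Y' := by
  obtain ⟨X', h1, ⟨p', h2⟩, h3⟩ := Core.exists_minimal_le (P := fun Z => Pr T Z Y ∧ X ⊓ Y ≤ Z) (H := X) ⟨p, inf_le_left⟩
  have h4 : X' ⊓ Y = X ⊓ Y := le_antisymm (inf_le_inf_right _ h1) (le_inf h2 inf_le_right)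
  refine ⟨X', h1, h4, p', fun Y' e Z x h5 h6 h7 h8 => ?_⟩
  have h9 : X' ⊓ Y' = X ⊓ Y := le_antisymm (e ▸ inf_le_inf_right _ h1) (le_inf h2 (e.ge.trans inf_le_right))
  rw [h9] at h5 h8
  have c := (le_inf p.c₁ p.c₂).trans (le_inf h2 h5)
  by_cases q : 𝐐(X' ⊓ Z ⊔ Y) = ⊥
  · exact (h3 _ ⟨⟨c, p.c₂, h.core_ne p'.q₁ ((le_centralizer_oz T).trans c) inf_le_left, p.q₂, q⟩, le_inf h2 h5⟩
      inf_le_left).ge.trans inf_le_right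
  · have := b X' _ ⟨p'.c₁, p.c₂.trans le_sup_right, p'.q₁, q, by
      rw [← sup_assoc, sup_inf_self]; exact p'.bot⟩
    exact (h8 ((eq_of_le_of_card_le (h4.ge.trans (inf_le_inf_left _ le_sup_right)) this).ge ⟨h6, mem_sup_left ⟨h6, h7⟩⟩)).elim

theorem Hy.exists_am (h : Hy T) (p : Pr T X Y) : ∃ X Y, Pr T X Y ∧ Big T X Y ∧ Am X Y := by
  obtain ⟨⟨X, Y⟩, p, b⟩ := Set.exists_max_image {z : Subgroup G × Subgroup G | Pr T z.1 z.2}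
    (fun z => Nat.card ↥(z.1 ⊓ z.2)) (Set.toFinite _) ⟨(X, Y), p⟩
  obtain ⟨X', h1, h2, p', m⟩ := h.exists_mx p fun X' Y' p' => b (X', Y') p'
  obtain ⟨Y', h3, h4, p'', m'⟩ := h.exists_mx p'.symm fun X'' Y'' p'' => by
    rw [inf_comm Y, h2]; exact b (X'', Y'') p''
  dsimp only at *
  have h5 : X ⊓ Y' = X ⊓ Y := le_antisymm (inf_le_inf_left _ h3)
    (le_inf inf_le_left (h2.ge.trans ((inf_comm _ _).le.trans (h4.ge.trans inf_le_left))))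
  refine ⟨X', Y', p''.symm, fun X'' Y'' p => ?_, h.ed p''.symm (m _ h5), h.ed p'' (m' _ rfl)⟩
  rw [inf_comm X', h4, inf_comm Y, h2]; exact b (X'', Y'') p

theorem Hy.inf_eq (h : Hy T) (p : Pr T X Y) (a : Am X Y) : X ⊓ Y = T :=
  fsyl_eq h.syl a.two (le_inf p.le₁ p.symm.le₁) le_top

theorem Hy.cent_eq (h : Hy T) (p : Pr T X Y) : 𝐂(𝛀(T)) = T := by
  obtain ⟨X, Y, p, -, a⟩ := h.exists_am p
  exact le_antisymm ((le_inf p.c₁ p.c₂).trans (h.inf_eq p a).le) (le_centralizer_oz T)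

end Cfsg.Lib.LFE
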