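import Cfsg.Agent.Lib.LFE.E
import Cfsg.Agent.Lib.LFE.Pair
import Cfsg.Agent.Lib.T2.Gen

/-! Soluble amalgams with critical distance 1 in a perfect group: transfer. -/

set_option autoImplicit false
set_option linter.unusedSectionVars false

namespace Cfsg.Lib.LFE

open Cfsg Subgroup Cfsg.Lib.Transfer Cfsg.Lib.BG Cfsg.Lib.Loc Cfsg.Lib.Amalgam Cfsg.Lib.PLocal Cfsg.Lib.JComp
open Cfsg.Lib.NG hiding CD NV
open Cfsg.Lib.Inv hiding conj_mem_of_mem_normalizer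

variable {G : Type*} [Group G] [Finite G] {A B C D F F' H K L N P Q R S U V X Y : Subgroup G}
  {a b c d g k p q r s t u v w x y z : G} {T : Sylow 2 G}

local notation "𝔅" => blk 𝐕(X) X F
local notation "𝔚(" a ")" => ⁅𝐕(X), blk 𝐕(X) X F a⁆
local notation "𝔅'" => blk 𝐕(Y) Y F'
local notation "𝔚'(" a ")" => ⁅𝐕(Y), blk 𝐕(Y) Y F' a⁆

theorem thompson (hG : pResidual 2 G = ⊤) (ha : a ∈ (T : Subgroup G)) (n : a ∉ ⁅(T : Subgroup G), (T : Subgroup G)⁆)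
    (aa : a * a = 1) (hC : IsPGroup 2 C) (h : C ≤ 𝐂[a]) :
    ∃ (N : Subgroup G) (g : G), ⁅(T : Subgroup G), (T : Subgroup G)⁆ ≤ N ∧ a ∉ N ∧ g * a * g⁻¹ ∈ N ∧ g ⋆ C ≤ T := by
  obtain ⟨φ, hφ⟩ := CommGroup.exists_apply_ne_one_of_hasEnoughRootsOfUnity (Abelianization T) ℂ
    (a := Abelianization.of ⟨a, ha⟩) fun e => n (by
      rw [← map_subtype_commutator]; exact mem_map_of_mem _ (Abelianization.ker_of T ▸ e : (⟨a, ha⟩ : T) ∈ _))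
  let χ := φ.comp Abelianization.of
  have e : (χ.ker.map (T : Subgroup G).subtype).subgroupOf T = χ.ker :=
    comap_map_eq_self_of_injective (subtype_injective _) _
  have : ((χ.ker.map (T : Subgroup G).subtype).subgroupOf T).Normal := by rw [e]; infer_instance
  obtain ⟨g, h1, -, h2⟩ := exists_conj_mem_and_conj_le T (T := χ.ker.map (T : Subgroup G).subtype)
    (isCyclic_of_injective_ringHom
    (((Units.coeHom ℂ).comp (QuotientGroup.kerLift _)).comp (QuotientGroup.quotientMulEquivOfEq e).toMonoidHom)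
    ((Units.val_injective.comp (QuotientGroup.kerLift_injective _)).comp (MulEquiv.injective _))) aa
    (mem_sup_left (hG ▸ mem_top a)) hC h
  exact ⟨_, g, map_subtype_commutator (T : Subgroup G) ▸ map_mono (Abelianization.commutator_subset_ker χ),
    fun h => hφ ((mem_map_iff_mem (x := ⟨a, ha⟩) (subtype_injective _)).1 h), h1, h2⟩

theorem Vs.comm_of_three {l : G} (h : Vs S X) (f : FR 𝐕(X) X F) (hQ : 𝐐(X) ≤ 𝐕(X)) (ha : Tv 𝐕(X) X a) (hb : Tv 𝐕(X) X b)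
    (n : 𝔅 a ≠ 𝔅 b) (k1 : k ∈ 𝔅 a) (l1 : l ∈ 𝔅 b) (k3 : k ^ 3 = 1) (l3 : l ^ 3 = 1) : k * l = l * k := by
  have lX := f.blk_le' hb l1
  have m := hQ (h.mem_Q' (mul_mem (conj_mem_of_norm (le_norm _ (inv_mem (f.blk_le' ha k1))) lX) (inv_mem lX))
    (far' f hb ha n (inv_mem (mem_sup_left k1)) (mem_sup_left l1)))
  have m1 := Vs.mem_W f ha k1 m k3 (by rw [show k * (k⁻¹ * l * k⁻¹⁻¹ * l⁻¹) = l * k * l⁻¹ by group, conj_pow, k3]; simp)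
  have m2 := conj_mem_of_norm (right_norm_comm _ _ l1) (Vs.mem_W f hb l1 (conj_mem_of_norm (f.hn (inv_mem lX)) m) l3 (by
    rw [show l * (l⁻¹ * (k⁻¹ * l * k⁻¹⁻¹ * l⁻¹) * l⁻¹⁻¹) = k⁻¹ * l * k⁻¹⁻¹ by group, conj_pow, l3]; simp))
  by_contra e
  refine n (f.same hb ha (by simpa [mul_assoc] using m2) m1 fun c => e ?_)
  rw [inv_inv, mul_inv_eq_one, mul_assoc, inv_mul_eq_iff_eq_mul] at c
  exact c.symm

namespace Cf

theorem Q_le_comm (h : Cf T X Y F F' t a r u b z) (hG : pResidual 2 G = ⊤) (hN : 𝐍(𝐉((T : Subgroup G))) ≤ T) :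
    𝐐(X) ⊓ 𝐐(Y) ≤ ⁅(T : Subgroup G), (T : Subgroup G)⁆ := fun d hd => by_contra fun e => by
  obtain ⟨N, g, h1, h2, h3, h4⟩ := thompson hG (h.vs.Q_le hd.1) e (sq_of_elemAb h.ea hd.1) (h.vs.pg.to_le h.T_le)
    (sup_le (h.ab.trans (cent_le_cent1 hd.1)) (h.symm.ab.trans (cent_le_cent1 hd.2)))
  rw [← h.J_eq] at h4
  exact h2 (inv_mem_iff.1 ((mul_mem_cancel_left h3).1 (h1 (comm_mem_comm
    (hN (norm_of_conj_eq (conj_thompsonSubgroupOf_eq_of_le h4))) (h.vs.Q_le hd.1)))))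

theorem one (h : Cf S X Y F F' t a r t a r) (hC : 𝐂(𝛀(S)) ≤ S) (hW : 𝐐(X) ≤ 𝔚(t) ⊔ 𝔚(t)) :
    Nat.card G = 168 ∨ Nat.card G = 360 := by
  rw [sup_idem] at hW
  have q := h.q₁
  have hr := q.ct.mem h.f q.tt
  have e : (t * a) ^ 2 = r := by
    rw [← q.eq, inv_eq_of_mul_eq_one_right q.tt.sq, inv_eq_of_mul_eq_one_right q.ta.sq, pow_two, ← mul_assoc]
  have a1 : a ≠ 1 := by rintro rfl; exact q.ct.1 (by simpa using q.eq.symm)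
  have t1 : t ≠ 1 := by rintro rfl; exact q.ct.1 (by simpa using q.eq.symm)
  obtain ⟨k, -, hk⟩ := h.vs.trans h.f h.ea q.tt hr q.ct.1 q.ma a1
  obtain ⟨l, -, hl⟩ := h.vs'.trans h.f' h.symm.ea q.ta (q.ca.mem h.f' q.ta) q.ct.1 q.mt t1
  refine (T2.dih_config q.tt.sq q.ta.sq (by rw [show 4 = 2 * 2 from rfl, pow_mul, e, pow_two, h.vs.V_sq h.rV])
    (e ▸ q.ct.1) (e ▸ hk) (e ▸ hl) fun x hx => ?_).2
  rw [e] at hx
  have h1 : x ∈ S := hC fun y hy => by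
    rcases q.ct.or_eq h.f q.tt (hW (h.vs.V_le_Q ((FSyl.mk h.vs.le h.vs.pg h.vs.odd).oz_le hy))) (h.f.not_cent q.tt)
      (by rw [BG.mem_cent.1 (oz_le_centralizer _ hy) t h.symm.aS, mul_inv_cancel_right]) (q.ct.fix h.f q.tt) with rfl | rfl
    exacts [by simp, hx.symm]
  have m1 : t ∈ closure ({t, a} : Set G) := subset_closure (by simp)
  have m2 : a ∈ closure ({t, a} : Set G) := subset_closure (by simp)
  have m3 : r ∈ closure ({t, a} : Set G) := e ▸ pow_mem (mul_mem m1 m2) 2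
  refine h.vs.mem_of_norm h.f h.v h.symm.aS h.symm.aS m1 m1 (fun y hy => ?_) h1 (norm_of_conj_eq
    ((h.f.conj_blk (h.vs.le h1)).trans ((h.v.or _ (q.tt.conj h.f.hn (h.vs.le h1))).elim id id)))
  rcases (k4_mem_iff (h.f.k4 q.tt) q.ma hr a1 q.ct.1 fun c => q.ct.1 (by
    rw [← q.eq, c, q.ct.fix h.f q.tt, mul_inv_cancel])).1 (hW hy) with rfl | rfl | rfl | rfl
  exacts [one_mem _, m2, m3, mul_mem m2 m3]

variable (h : Cf S X Y F F' t a r u b z)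
include h

theorem comm_le : ⁅𝐐(X) ⊔ 𝐐(Y), 𝐐(X) ⊔ 𝐐(Y)⁆ ≤ 𝐐(X) := by
  have n := h.T_le.trans (h.vs.le.trans (le_normalizer_core 2 X))
  refine comm_sup_le (le_norm _) (le_sup_right.trans n) (comm_le_left n) ((commutator_comm _ _).le.trans
    (comm_sup_le (le_norm _) (le_sup_right.trans n) (comm_le_left (le_sup_right.trans n)) ?_))
  rw [comm_eq_bot_iff'.2 h.symm.ab]; exact bot_le

theorem fix_or (e : 𝔅 t ≠ 𝔅 u) (hx : x ∈ S) (h1 : x ∈ 𝐍(𝔅 t)) (h2 : x ∉ 𝐂(𝔚(t))) (hv : v ∈ 𝔚(t)) (hw : w ∈ 𝔚(u))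
    (h3 : x * (v * w) * x⁻¹ = v * w) : v = 1 ∨ v = r :=
  h.q₁.ct.or_eq h.f h.q₁.tt hv h2 (h.v.dec_fix h.f e (h.vs.le hx) h1 hv hw h3).1
    (h.vs.fixw' h.f h.q₁.tt h.symm.aS h.q₁.ct hx h1)

theorem fix_or' (e : 𝔅 t ≠ 𝔅 u) (hx : x ∈ S) (h1 : x ∈ 𝐍(𝔅 t)) (h2 : x ∉ 𝐂(𝔚(u))) (hv : v ∈ 𝔚(t)) (hw : w ∈ 𝔚(u))
    (h3 : x * (v * w) * x⁻¹ = v * w) : w = 1 ∨ w = z :=
  h.swap.fix_or e.symm hx (h.v.norm' h.f (h.vs.le hx) h1) h2 hw hv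
    (by rwa [ea_comm h.vs.ea (h.f.P_le h.q₂.tt hw) (h.f.P_le h.q₁.tt hv)])

theorem swap_cent (hs : s ∈ X) (h1 : s ∉ 𝐍(𝔅 t)) (hc : s ∈ 𝐂[x]) (h2 : x ∈ 𝐂(𝔚(t))) : x ∈ 𝐂(𝔚(u)) := by
  rw [← h.v.swap h.f hs h1, ← conj_W h.f hs, ← conj_centralizer, ← conj_eq_of_cent1 hc]
  exact conj_mem_conj.2 h2

theorem exists_inv (hW : 𝐐(X) ≤ 𝔚(t) ⊔ 𝔚(u)) (hs : s ∈ S) (h1 : s ∉ 𝐍(𝔅 t)) : ∃ s ∈ S, s ∉ 𝐍(𝔅 t) ∧ s * s = 1 := by
  have tS := h.symm.aS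
  have nt := h.f.norm_blk h.f.hn h.q₁.tt
  wlog e : s * s ∈ 𝐂(𝔚(t)) generalizing s
  · refine this (mul_mem hs tS) (fun c => h1 ((mul_mem_cancel_right nt).1 c)) ?_
    rw [show s * t * (s * t) = s * t * s⁻¹ * (s * s * t) by group]
    exact mul_mem (far h.f h.q₁.tt (h.q₁.tt.conj h.f.hn (h.vs.le hs)) (fun c => h1 (norm_of_conj_eq
      ((h.f.conj_blk (h.vs.le hs)).trans c))) (mem_sup_right (mem_zpowers _))) (h.vs.mul_cent h.f h.q₁.tt tS (mul_mem hs hs) tS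
      (h.v.mul_norm h.f (h.vs.le hs) (h.vs.le hs) h1 h1) nt e (h.f.not_cent h.q₁.tt))
  obtain ⟨v, hv, w, hw, e'⟩ := h.v.dec h.f (hW (h.vs.mem_Q_of h.f h.v tS (h.vs.le (mul_mem hs hs)) e
    (h.swap_cent (h.vs.le hs) h1 (mem_cent1.2 (mul_assoc s s s).symm) e)))
  have h2 := h.v.swap_eq h.f (h.vs.le hs) h1 hv hw (by rw [e']; group)
  have vV := h.f.P_le h.q₁.tt hv
  have wV := h.f.P_le h.q₂.tt hw
  refine ⟨s * v, mul_mem hs (h.V_le vV), fun c => h1 ((mul_mem_cancel_right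
    (h.T_norm (mem_sup_left (h.vs.V_le_Q vV)))).1 c), ?_⟩
  rw [show s * v * (s * v) = s * v * s⁻¹ * (s * s) * v by group, h2, ← e', ea_comm h.vs.ea vV wV, ← mul_assoc, h.vs.V_sq wV,
    one_mul, h.vs.V_sq vV]

theorem mem_or (hW : 𝐐(X) ≤ 𝔚(t) ⊔ 𝔚(u)) (hs : s ∈ S) (h1 : s ∉ 𝐍(𝔅 t)) (hy : y ∈ 𝐐(X) ⊔ 𝐐(Y)) (h2 : y * y = 1)
    (hc : s ∈ 𝐂[y]) : y ∈ 𝐐(X) ∨ y ∈ 𝐐(Y) := or_iff_not_imp_left.2 fun e => by
  have n : 𝔅 t ≠ 𝔅 u := fun c => h1 (norm_of_conj_eq ((h.f.conj_blk (h.vs.le hs)).trans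
    ((h.v.swap h.f (h.vs.le hs) h1).trans c.symm)))
  have h3 : y ∉ 𝐂(𝔚(t)) := fun c => e (h.vs.mem_Q_of h.f h.v h.symm.aS (h.vs.le (h.T_le hy)) c
    (h.swap_cent (h.vs.le hs) h1 hc c))
  have h4 : y ∉ 𝐂(𝔚(u)) := fun c => h3 (h.swap.swap_cent (h.vs.le hs) (fun e => h1 (h.v.symm.norm' h.f (h.vs.le hs) e)) hc c)
  obtain ⟨q, hq, p, hp, e⟩ := (mem_sup_left_norm (h.vs'.Q_le.trans (h.vs.le.trans (le_normalizer_core 2 X)))).1 hy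
  obtain ⟨v, hv, w, hw, rfl⟩ := h.v.dec h.f (hW hq)
  have h5 : y * (v * w) * y⁻¹ = v * w := by
    have := sq_of_elemAb h.ea hq
    generalize v * w = q at *
    rw [inv_eq_of_mul_eq_one_right h2, ← e, mul_assoc, ← mul_assoc q q, this, one_mul, mul_assoc, sq_of_elemAb h.symm.ea hp,
      mul_one]
  refine e ▸ mul_mem (mul_mem ?_ ?_) hp
  · rcases h.fix_or n (h.T_le hy) (h.T_norm hy) h3 hv hw h5 with rfl | rfl
    exacts [one_mem _, h.vs'.V_le_Q h.symm.rV]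
  · rcases h.fix_or' n (h.T_le hy) (h.T_norm hy) h4 hv hw h5 with rfl | rfl
    exacts [one_mem _, h.vs'.V_le_Q h.symm.swap.rV]

theorem exists_conj (hW : 𝐐(X) ≤ 𝔚(t) ⊔ 𝔚(u)) (hs : s ∈ S) (h1 : s ∉ 𝐍(𝔅 t)) (hy : y ∈ 𝐐(X)) (y1 : y ≠ 1)
    (hc : s ∈ 𝐂[y]) : ∃ g, g * (r * z) * g⁻¹ = y :=
  h.vs.conj_two h.f h.ea h.v (h.vs.le hs) h1 (hW hy) y1 (conj_eq_of_cent1 hc) (h.q₁.ct.mem h.f h.q₁.tt) h.q₁.ct.1
    (h.q₂.ct.mem h.f h.q₂.tt) h.q₂.ct.1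

end Cf

theorem Cf.two (h : Cf T X Y F F' t a r (s * t * s⁻¹) (s * a * s⁻¹) (s * r * s⁻¹)) (hG : pResidual 2 G = ⊤)
    (hC : 𝐂(𝛀((T : Subgroup G))) ≤ T) (hW : 𝐐(X) ≤ 𝔚(t) ⊔ 𝔚(s * t * s⁻¹)) (hW' : 𝐐(Y) ≤ 𝔚'(a) ⊔ 𝔚'(s * a * s⁻¹))
    (hs : s ∈ (T : Subgroup G)) (h1 : s ∉ 𝐍(𝔅 t)) (ss : s * s = 1) : False := by
  have f := h.f
  have q := h.q₁
  have q' := h.q₂
  have sX := h.vs.le hs
  have n : 𝔅 t ≠ 𝔅 (s * t * s⁻¹) := fun c => h1 (norm_of_conj_eq ((f.conj_blk sX).trans c.symm))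
  have n' : 𝔅' a ≠ 𝔅' (s * a * s⁻¹) := fun c => h1 (h.qd_norm q hs (norm_of_conj_eq
    ((h.f'.conj_blk (h.vs'.le hs)).trans c.symm)))
  have tS := h.symm.aS
  have nt := f.norm_blk f.hn q.tt
  have hr := q.ct.mem f q.tt
  have hz := q'.ct.mem f q'.tt
  have z1 : 𝐂[r * (s * r * s⁻¹)] ≤ T := fun x hx => hC fun y hy => by
    obtain ⟨v, hv, w, hw, rfl⟩ := h.v.dec f (hW (h.vs.V_le_Q ((FSyl.mk h.vs.le h.vs.pg h.vs.odd).oz_le hy)))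
    have c := fun g hg => BG.mem_cent.1 (oz_le_centralizer _ hy) g hg
    have e := h.v.swap_eq f sX h1 hv hw (by rw [c s hs, mul_inv_cancel_right])
    rcases h.fix_or n tS nt (f.not_cent q.tt) hv hw (by rw [c t tS, mul_inv_cancel_right]) with rfl | rfl
    · simp [← e]
    · exact e ▸ (mem_cent1.1 hx).symm
  have key : ∀ g y k : G, g * (r * (s * r * s⁻¹)) * g⁻¹ = y → k ∈ 𝐂[y] → k ^ 3 = 1 → k = 1 := fun g y k e hk k3 => by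
    rw [← e, ← conj_cent1] at hk
    obtain ⟨n, hn⟩ := (isPGroup_conj (T.2.to_le z1) g) ⟨k, hk⟩
    exact (pow_eq_one_iff_of_coprime (Nat.Coprime.pow_left n (by norm_num : Nat.Coprime 2 3))).1 ⟨congrArg Subtype.val hn, k3⟩
  obtain ⟨k, k1, k2, k3⟩ := h.vs.exists_three f h.ea q.tt
  have l1 : s * k * s⁻¹ ∈ 𝔅 (s * t * s⁻¹) := (f.conj_blk sX).le (conj_mem_conj.2 k1)
  have l2 : s * k * s⁻¹ ∉ 𝐂(𝐕(X)) := fun e => k2 (by simpa [mul_assoc] using conj_mem_of_norm (norm_cent f.hn (inv_mem sX)) e)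
  have l3 : (s * k * s⁻¹) ^ 3 = 1 := by rw [conj_pow, k3]; simp
  have ns : ∀ g, g * (r * (s * r * s⁻¹)) * g⁻¹ ≠ s := fun g e => by
    have l4 : s * (s * k * s⁻¹) * s⁻¹ = k := by
      rw [show s * (s * k * s⁻¹) * s⁻¹ = s * s * k * (s * s)⁻¹ by group, ss]; simp
    have l5 : ∀ l, s * l * s⁻¹ = k → s * k * s⁻¹ = l → k * l = l * k → s ∈ 𝐂[k * l] := fun l a b c =>
      cent1_of_conj_eq (by rw [show s * (k * l) * s⁻¹ = s * k * s⁻¹ * (s * l * s⁻¹) by group, a, b, c])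
    specialize l5 _ l4 rfl
    have l7 := h.vs.comm_of_three f (hW.trans (h.v.le f)) q.tt q'.tt n k1 l1 k3 l3
    have l6 := key g s _ e (mem_cent1_symm (l5 l7)) (by rw [Commute.mul_pow l7, k3, l3, mul_one])
    exact l2 (f.faith _ q'.tt ⟨l1, eq_inv_of_mul_eq_one_right l6 ▸ Subgroup.inv_mem _ (far f q'.tt q.tt n (mem_sup_left k1))⟩)
  have nT : (T : Subgroup G) ≤ 𝐍(𝐐(X) ⊔ 𝐐(Y)) :=
    norm_sup (h.vs.le.trans (le_normalizer_core 2 X)) (h.vs'.le.trans (le_normalizer_core 2 Y))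
  have sT : s ∉ 𝐐(X) ⊔ 𝐐(Y) := fun e => h1 (h.T_norm e)
  obtain ⟨g, g1, g2, g3⟩ := transfer_cyc (C := T ⊓ 𝐂[s]) nT hs (fun x hx => by
    by_cases e : x ∈ 𝐐(X) ⊔ 𝐐(Y)
    · exact mem_sup_right e
    · exact (mul_mem_cancel_left (mem_sup_left (mem_zpowers s))).1 (mem_sup_right (h.mul_mem_T hs hx sT e))) ss
    (hG ▸ mem_top s) T.2.to_inf_left inf_le_right
  by_cases e : g ⋆ (T ⊓ 𝐂[s]) ≤ 𝐐(X) ⊔ 𝐐(Y)
  · have si := inv_eq_of_mul_eq_one_right ss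
    have c : ∀ x ∈ (T : Subgroup G), x * (s * x * s⁻¹) = s * x * s⁻¹ * x → g * (x * (s * x * s⁻¹)) * g⁻¹ ∈ 𝐐(X) ⊔ 𝐐(Y) :=
      fun x hx c => e (conj_mem_conj.2 ⟨mul_mem hx (mul_mem (mul_mem hs hx) (Subgroup.inv_mem _ hs)), mem_cent1.2 (by
        nth_rw 2 [c]
        rw [si, ← mul_assoc, ← mul_assoc, ← mul_assoc, ← mul_assoc, ← mul_assoc, ss, one_mul, mul_assoc _ s s, ss, mul_one])⟩)
    have c1 := ea_comm h.vs'.ea h.symm.aV h.symm.swap.aV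
    have c2 := ea_comm h.vs.ea h.aV h.swap.aV
    have c3 := comm_mem_comm (c t tS c1) (c a h.aS c2)
    have c4 : t * (s * t * s⁻¹) * (a * (s * a * s⁻¹)) * (t * (s * t * s⁻¹))⁻¹ * (a * (s * a * s⁻¹))⁻¹ =
        r * (s * r * s⁻¹) := by
      have e1 := conj_eq_of_cent1 (cent_le_cent1 q.ma (far f q.tt q'.tt n.symm (mem_sup_right (mem_zpowers _))))
      have e2 := conj_eq_of_cent1 (cent_le_cent1 q'.ma (far f q'.tt q.tt n (mem_sup_right (mem_zpowers _))))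
      have e3 := conj_eq_of_cent1 (cent_le_cent1 hz (far f q'.tt q.tt n (mem_sup_right (mem_zpowers _))))
      have e4 := ea_comm h.vs.ea h.aV h.swap.rV
      have e5 := mul_inv_eq_iff_eq_mul.1 q.eq
      have e6 := mul_inv_eq_iff_eq_mul.1 q'.eq
      generalize s * t * s⁻¹ = u at *
      generalize s * a * s⁻¹ = b at *
      generalize s * r * s⁻¹ = z at *
      calc _ = t * (u * a * u⁻¹ * (u * b * u⁻¹)) * t⁻¹ * (a * b)⁻¹ := by group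
        _ = t * a * t⁻¹ * (t * z * t⁻¹) * (t * b * t⁻¹) * (a * b)⁻¹ := by rw [e1, e6]; group
        _ = r * (a * z) * a⁻¹ := by rw [e5, e3, e2]; group
        _ = _ := by rw [e4]; group
    rw [show ∀ x y : G, g * x * g⁻¹ * (g * y * g⁻¹) * (g * x * g⁻¹)⁻¹ * (g * y * g⁻¹)⁻¹ = g * (x * y * x⁻¹ * y⁻¹) * g⁻¹ from
      fun x y => by group, c4] at c3
    have c5 := h.comm_le c3
    have c6 := h.symm.comm_le (by rwa [sup_comm])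
    obtain ⟨v, hv, w, hw, e'⟩ := h.v.dec f (hW c5)
    have c7 : ∀ x ∈ 𝐐(Y), x * (v * w) * x⁻¹ = v * w := fun x hx => by
      rw [e', ← BG.mem_cent.1 (h.symm.ab hx) _ c6, mul_inv_cancel_right]
    have r1 : r * (s * r * s⁻¹) ≠ 1 := fun c => n (f.same q'.tt q.tt (eq_inv_of_mul_eq_one_left c ▸ inv_mem hz) hr q.ct.1)
    rcases h.fix_or n tS nt (f.not_cent q.tt) hv hw (c7 t (h.vs'.V_le_Q h.symm.aV)) with rfl | rfl <;>
    rcases h.fix_or' n h.symm.swap.aS (norm_blk' f q.tt q'.tt) (f.not_cent q'.tt) hv hw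
      (c7 _ (h.vs'.V_le_Q h.symm.swap.aV)) with rfl | rfl
    · exact conj_ne_one r1 (e'.symm.trans (one_mul 1))
    · exact k2 (key g _ k e'.symm (by rw [one_mul]; exact cent_le_cent1 hz (far f q'.tt q.tt n (mem_sup_left k1))) k3 ▸
        one_mem _)
    · exact l2 (key g _ _ e'.symm (by rw [mul_one]; exact cent_le_cent1 hr (far f q.tt q'.tt n.symm (mem_sup_left l1))) l3 ▸
        one_mem _)
    · exact sT (by simpa [mul_assoc] using conj_mem_of_norm (nT (inv_mem (z1 (cent1_of_conj_eq e'.symm)))) g1)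
  obtain ⟨x, x1, x2⟩ := SetLike.not_le_iff_exists.1 e
  have x3 : x ∈ 𝐂[g * s * g⁻¹] := (conj_cent1 g s).le (conj_mono g inf_le_right x1)
  have x4 := fun e => x2 (h.mem_T (g3 x1) e)
  have y1 : g * s * g⁻¹ ≠ 1 := conj_ne_one fun e => sT (e ▸ one_mem _)
  rcases h.mem_or hW (g3 x1) x4 g1 (by rw [show g * s * g⁻¹ * (g * s * g⁻¹) = g * (s * s) * g⁻¹ by group, ss]; simp) x3
    with e | e
  · obtain ⟨m, hm⟩ := h.exists_conj hW (g3 x1) x4 e y1 x3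
    exact ns (g⁻¹ * m) (conj_injective (x := g) (Eq.trans (by group) hm))
  · obtain ⟨m, hm⟩ := h.symm.exists_conj hW' (g3 x1) (fun e => x4 (h.qd_norm q (g3 x1) e)) e y1 x3
    exact ns (g⁻¹ * m) (conj_injective (x := g) (Eq.trans (by group) hm))

theorem Am.symm (h : Am X Y) : Am Y X := ⟨h.e₂, h.e₁⟩

theorem Am.exists_cf (h : Am X Y) : ∃ F F' t a r, B1 (X ⊓ Y) X Y F F' ∧ Qd X Y F F' t a r ∧
    ∃ u b z, Cf (X ⊓ Y) X Y F F' t a r u b z := by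
  obtain ⟨⟨F, F', b⟩, t, h1, h2⟩ := h.b1
  obtain ⟨t, a, r, q⟩ := b.exists_qd h1 h2
  refine ⟨F, F', t, a, r, b, q, ?_⟩
  by_cases e : X ⊓ Y ≤ 𝐍(blk 𝐕(X) X F t)
  · exact ⟨_, _, _, b.cf' q e⟩
  · obtain ⟨s, hs, e⟩ := SetLike.not_le_iff_exists.1 e
    exact ⟨_, _, _, b.cf q hs e⟩

theorem Hy.norm_J (h : Hy S) (p : Pr S X Y) (b : Big S X Y) (m : Am X Y) : 𝐍(𝐉(S)) ≤ S := by_contra fun e => by
  have c := h.cent_eq p
  have i := h.inf_eq p m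
  have j : IsPGroup 2 𝐉(S) := h.syl.pgroup.to_le (thompsonSubgroupOf_le S)
  obtain ⟨H, h1, ⟨h2, h3⟩, h4⟩ := Core.exists_minimal_le (P := fun H => S ≤ H ∧ ¬ H ≤ S) (H := 𝐍(𝐉(S)))
    ⟨(le_norm S).trans (normalizer_le_normalizer_thompsonSubgroupOf S), e⟩
  have h5 : 𝐉(S) ≤ 𝐐(H) := le_core ((thompsonSubgroupOf_le S).trans h2) h1 j
  have key : ∀ {X Y}, Pr S X Y → Am X Y → 𝐐(H ⊔ X) ≠ ⊥ := fun {X Y} p m e => by
    obtain ⟨F, F', t, a, r, -, -, u, b', z, k⟩ := m.exists_cf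
    rw [h.inf_eq p m] at k
    have h6 := (le_thompsonSubgroupOf k.Q_max).trans h5
    have p' : Pr S H X := ⟨c.le.trans h2, p.c₁, ne_bot_mono p.q₁ h6, p.q₁, e⟩
    have h7 : H ⊓ X = S := (eq_of_le_of_card_le (le_inf h2 p.le₁) (i ▸ b H X p')).symm
    have m' : Am H X := ⟨h.ed p' fun Z x a b c d => (h4 (H ⊓ Z) ⟨le_inf h2 (h7.ge.trans a), fun e => d (h7.ge (e ⟨b, c⟩))⟩
      inf_le_left).ge.trans inf_le_right, h.ed p'.symm fun Z x a b c d => k.vs.max Z x (by rwa [inf_comm, h7] at a) b c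
      (by rwa [inf_comm, h7] at d)⟩
    obtain ⟨-, t, t1, t2⟩ := m'.b1
    exact t2.not_mem (m'.e₁.vx.V_cent (h6 (k.vs.V_le_Q t1)))
  have := b _ _ ⟨p.c₁.trans le_sup_right, p.c₂.trans le_sup_right, key p m, key p.symm m.symm, eq_bot_iff.2 fun x hx =>
    p.bot.le (core_le_core (sup_le_sup le_sup_right le_sup_right) (((h.syl.of_le (p.le₁.trans (le_sup_right.trans le_sup_left))
      le_top).core_le).trans (p.le₁.trans le_sup_left)) hx)⟩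
  rw [i] at this
  exact h3 ((le_inf le_sup_left le_sup_left).trans (eq_of_le_of_card_le (le_inf (h2.trans le_sup_left)
    (h2.trans le_sup_left)) this).ge)

theorem Hy.card (h : Hy (T : Subgroup G)) (p : Pr (T : Subgroup G) X Y) (hG : pResidual 2 G = ⊤) :
    Nat.card G = 168 ∨ Nat.card G = 360 := by
  obtain ⟨X, Y, p, b, m⟩ := h.exists_am p
  have hN := h.norm_J p b m
  have hC := (h.cent_eq p).le
  obtain ⟨F, F', t, a, r, k, q, -⟩ := m.exists_cf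
  rw [h.inf_eq p m] at k
  by_cases e : (T : Subgroup G) ≤ 𝐍(blk 𝐕(X) X F t)
  · exact (k.cf' q e).one hC ((k.cf' q e).Q_le_W ((k.cf' q e).Q_le_comm hG hN))
  obtain ⟨s, hs, e⟩ := SetLike.not_le_iff_exists.1 e
  obtain ⟨s, hs, e, ss⟩ := (k.cf q hs e).exists_inv ((k.cf q hs e).Q_le_W ((k.cf q hs e).Q_le_comm hG hN)) hs e
  have c := k.cf q hs e
  exact (c.two hG hC (c.Q_le_W (c.Q_le_comm hG hN)) (c.symm.Q_le_W (c.symm.Q_le_comm hG hN)) hs e ss).elim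

end Cfsg.Lib.LFE
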